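import Mathlib
import Cfsg.Agent.Lib.Helper37.EluStmt

/-! S5958, piece FIXMOD: for an invariant subspace `W` of `φ` with `φ ^ r = 1`, the dimensions
of `W` and of `W ⊓ ker (φ - 1)` are congruent modulo the order of `q` modulo `r`. -/

set_option autoImplicit false

namespace Cfsg.Agent.Lib.Helper65.EluFIXMOD

open Cfsg.Agent.Lib.Helper37.EluStmt

universe u

theorem main : FixMod.{u} := by
  intro F _ _ p _ _ r _ hrp V _ _ _ φ hφ W hW
  let _ : DecidableEq W := Classical.decEq W
  have hfinV : Finite V := Module.finite_of_finite F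
  have hfW : Fintype W := Fintype.ofFinite W
  have hfK : Fintype ↥(W ⊓ LinearMap.ker (φ - 1)) := Fintype.ofFinite _
  -- the restriction of `φ` to `W` as a function
  obtain ⟨f, hf⟩ : ∃ f : Function.End W, ∀ w : W, ((f w : W) : V) = φ w :=
    ⟨fun w => ⟨φ w, hW w w.2⟩, fun w => rfl⟩
  have key : ∀ (n : ℕ) (w : W), (((f ^ n) w : W) : V) = (φ ^ n) w := by
    intro n
    induction n with
    | zero => intro w; rfl
    | succ n ih =>
      intro w
      rw [pow_succ, pow_succ]
      show (((f ^ n) (f w) : W) : V) = (φ ^ n) (φ w)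
      rw [ih, hf]
  have hfr : f ^ r ^ 1 = 1 := by
    funext w
    apply Subtype.ext
    rw [pow_one, key, hφ]
    rfl
  have hmod := Equiv.Perm.card_fixedPoints_modEq (p := r) (n := 1) hfr
  rw [Fintype.card_eq_nat_card, Fintype.card_eq_nat_card] at hmod
  -- the fixed points
  have hfix : Nat.card (Function.fixedPoints f) =
      Nat.card ↥(W ⊓ LinearMap.ker (φ - 1)) := by
    refine Nat.card_congr
      { toFun := fun w => ⟨(w.1 : V), ⟨w.1.2, ?_⟩⟩
        invFun := fun k => ⟨⟨k.1, k.2.1⟩, ?_⟩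
        left_inv := fun w => rfl
        right_inv := fun k => rfl }
    · have h1 : f w.1 = w.1 := w.2
      have h2 : φ (w.1 : V) = (w.1 : V) := by rw [← hf, h1]
      show (w.1 : V) ∈ LinearMap.ker (φ - 1)
      rw [LinearMap.mem_ker, LinearMap.sub_apply, h2]
      exact sub_self _
    · have h1 : (k.1 : V) ∈ LinearMap.ker (φ - 1) := k.2.2
      rw [LinearMap.mem_ker, LinearMap.sub_apply, sub_eq_zero] at h1
      show f ⟨k.1, k.2.1⟩ = ⟨k.1, k.2.1⟩
      apply Subtype.ext
      rw [hf]
      exact h1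
  rw [hfix, Module.natCard_eq_pow_finrank (K := F) (V := W),
    Module.natCard_eq_pow_finrank (K := F) (V := ↥(W ⊓ LinearMap.ker (φ - 1))),
    Nat.card_eq_fintype_card] at hmod
  -- `e ≤ d`
  have hle : Module.finrank F ↥(W ⊓ LinearMap.ker (φ - 1)) ≤ Module.finrank F W :=
    Submodule.finrank_mono inf_le_left
  -- `q` is a unit modulo `r`
  have hq0 : ((Fintype.card F : ℕ) : ZMod r) ≠ 0 := by
    obtain ⟨k, -, hk⟩ := FiniteField.card F p
    rw [hk]
    intro h0
    rw [ZMod.natCast_eq_zero_iff] at h0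
    have h1 := (Fact.out : r.Prime).dvd_of_dvd_pow h0
    exact hrp ((Nat.prime_dvd_prime_iff_eq Fact.out Fact.out).mp h1)
  have h1 : ((Fintype.card F : ℕ) : ZMod r) ^ Module.finrank F W =
      ((Fintype.card F : ℕ) : ZMod r) ^ Module.finrank F ↥(W ⊓ LinearMap.ker (φ - 1)) := by
    have := (ZMod.natCast_eq_natCast_iff _ _ _).mpr hmod
    push_cast at this
    exact this
  have h2 : ((Fintype.card F : ℕ) : ZMod r) ^
      (Module.finrank F W - Module.finrank F ↥(W ⊓ LinearMap.ker (φ - 1))) = 1 := by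
    have e : Module.finrank F W = Module.finrank F ↥(W ⊓ LinearMap.ker (φ - 1)) +
        (Module.finrank F W - Module.finrank F ↥(W ⊓ LinearMap.ker (φ - 1))) := by omega
    rw [e, pow_add] at h1
    exact mul_left_cancel₀ (pow_ne_zero _ hq0) (h1.trans (mul_one _).symm)
  obtain ⟨m, hm⟩ := orderOf_dvd_of_pow_eq_one h2
  exact ⟨m, by omega⟩

end Cfsg.Agent.Lib.Helper65.EluFIXMOD
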