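import Mathlib
import Cfsg.Agent.Lib.Lead.BrHalfStmt

/-! S4504 part C, piece Goal: the number of Sylow `p`-subgroups is at most `p + 1`. -/

set_option autoImplicit false

namespace Cfsg.Agent.Lib.Helper65.BrCGoal

open Cfsg Cfsg.Agent.Lib.Lead
open scoped ComplexConjugate Classical

universe u

/-- The final real inequality. -/
theorem arith (n z e Mr q Lc t : ℝ) (hn : 0 < n) (hz : 0 < z) (he : 2 ≤ e)
    (hL : Lc = (2 * e + 1) * e * n * z)
    (hmain : Lc * Mr - Lc ≤ z * (e ^ 4 - e ^ 2) + z * n * e * (q - (e + 1)))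
    (hM : t ≤ Mr - 1)
    (hq : (2 * e + 1) * t - (q - (e + 1)) = e * (e - 1) / 2) :
    n ≤ 2 * e + 2 := by
  have he0 : 0 < e := by linarith
  have hem1 : 0 < e - 1 := by linarith
  -- divide by `z`
  have h1 : (2 * e + 1) * e * n * (Mr - 1) ≤ (e ^ 4 - e ^ 2) + n * e * (q - (e + 1)) := by
    have : z * ((2 * e + 1) * e * n * (Mr - 1)) ≤ z * ((e ^ 4 - e ^ 2) + n * e * (q - (e + 1))) := by
      calc z * ((2 * e + 1) * e * n * (Mr - 1)) = Lc * Mr - Lc := by rw [hL]; ring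
        _ ≤ z * (e ^ 4 - e ^ 2) + z * n * e * (q - (e + 1)) := hmain
        _ = z * ((e ^ 4 - e ^ 2) + n * e * (q - (e + 1))) := by ring
    exact le_of_mul_le_mul_left this hz
  have h2 : (2 * e + 1) * e * n * t ≤ (2 * e + 1) * e * n * (Mr - 1) := by
    apply mul_le_mul_of_nonneg_left hM
    positivity
  have h3 : n * e * ((2 * e + 1) * t - (q - (e + 1))) ≤ e ^ 4 - e ^ 2 := by
    have : n * e * ((2 * e + 1) * t - (q - (e + 1)))
        = (2 * e + 1) * e * n * t - n * e * (q - (e + 1)) := by ring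
    rw [this]; linarith
  rw [hq] at h3
  by_contra hcon
  have hcon' : 2 * e + 2 < n := not_le.mp hcon
  have hpos : 0 < e * (e * (e - 1)) := mul_pos he0 (mul_pos he0 hem1)
  have h4 : (2 * e + 2) * (e * (e * (e - 1))) < n * (e * (e * (e - 1))) :=
    mul_lt_mul_of_pos_right hcon' hpos
  nlinarith [h3, h4]

theorem main (hSmall : BrHalf.Small.{u}) (hMom2 : BrHalf.Mom2.{u}) (hMom4 : BrHalf.Mom4.{u})
    (hSumZ : BrHalf.SumZ.{u}) (hSumSing : BrHalf.SumSing.{u}) (hCentP : BrHalf.CentP.{u})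
    (hCardL : BrHalf.CardL.{u}) : BrHalf.Goal.{u} := by
  intro L _ _ p _ c
  obtain ⟨M, hM4, hM⟩ := hMom4 p c
  have h2 := hMom2 p c
  have hZ := hSumZ p c
  have hS := hSumSing p c
  have hcard := hCardL p c
  have hp5 := c.hp5
  have hdeg : 2 * c.e + 1 = p := c.hdeg
  -- split of the sum
  have hsplit : ∑ g : L, (‖c.ξ g‖ ^ 4 - ‖c.ξ g‖ ^ 2) =
      (∑ g : L, if g ∈ Subgroup.center L then ‖c.ξ g‖ ^ 4 - ‖c.ξ g‖ ^ 2 else 0) +
      (∑ g : L, if p ∣ orderOf g then ‖c.ξ g‖ ^ 4 - ‖c.ξ g‖ ^ 2 else 0) +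
      (∑ g : L, if g ∉ Subgroup.center L ∧ ¬ p ∣ orderOf g then
        ‖c.ξ g‖ ^ 4 - ‖c.ξ g‖ ^ 2 else 0) := by
    rw [← Finset.sum_add_distrib, ← Finset.sum_add_distrib]
    apply Finset.sum_congr rfl
    intro g _
    by_cases hz : g ∈ Subgroup.center L
    · have hp := hCentP p c g hz
      simp [hz, hp]
    · by_cases hp : p ∣ orderOf g
      · simp [hz, hp]
      · simp [hz, hp]
  have hrest : (∑ g : L, if g ∉ Subgroup.center L ∧ ¬ p ∣ orderOf g then
        ‖c.ξ g‖ ^ 4 - ‖c.ξ g‖ ^ 2 else 0) ≤ 0 := by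
    apply Finset.sum_nonpos
    intro g _
    split_ifs with h
    · have h1 := hSmall p c g h.2 h.1
      have h0 := norm_nonneg (c.ξ g)
      have h3 : ‖c.ξ g‖ ^ 2 ≤ 1 := by nlinarith
      have h4 : 0 ≤ ‖c.ξ g‖ ^ 2 := by positivity
      nlinarith
    · exact le_refl 0
  have htot : ∑ g : L, (‖c.ξ g‖ ^ 4 - ‖c.ξ g‖ ^ 2) = (Nat.card L : ℝ) * M - Nat.card L := by
    rw [Finset.sum_sub_distrib, hM4, h2]
  rw [hZ, hS] at hsplit
  have hmain : (Nat.card L : ℝ) * M - Nat.card L ≤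
      (c.zc : ℝ) * ((c.e : ℝ) ^ 4 - (c.e : ℝ) ^ 2) +
        (c.zc : ℝ) * (c.n : ℝ) * (c.e : ℝ) * (BrHalf.q4 p - ((p : ℝ) + 1) / 2) := by
    rw [← htot, hsplit]; linarith
  -- casts
  have hpr : (p : ℝ) = 2 * (c.e : ℝ) + 1 := by
    have := congrArg (Nat.cast : ℕ → ℝ) hdeg
    push_cast at this
    linarith
  have he2 : (2 : ℝ) ≤ (c.e : ℝ) := by
    have : 2 ≤ c.e := by omega
    exact_mod_cast this
  have hn : (0 : ℝ) < (c.n : ℝ) := by
    have : 0 < c.n := Nat.card_pos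
    exact_mod_cast this
  have hz : (0 : ℝ) < (c.zc : ℝ) := by
    have : 0 < c.zc := Nat.card_pos
    exact_mod_cast this
  have hL : (Nat.card L : ℝ) = (2 * (c.e : ℝ) + 1) * (c.e : ℝ) * (c.n : ℝ) * (c.zc : ℝ) := by
    have h1 : p - 1 = 2 * c.e := by omega
    rw [h1] at hcard
    have := congrArg (Nat.cast : ℕ → ℝ) hcard
    push_cast at this
    rw [hpr] at this
    linarith
  have hgoal : (c.n : ℝ) ≤ 2 * (c.e : ℝ) + 2 := by
    rw [hpr] at hmain
    have e1 : (2 * (c.e : ℝ) + 1 + 1) / 2 = (c.e : ℝ) + 1 := by ring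
    rw [e1] at hmain
    have hodd : p % 4 = 1 ∨ p % 4 = 3 := by omega
    rcases hodd with h4 | h4
    · -- `p = 4 t + 1`
      have hq : BrHalf.q4 p = ((c.e : ℝ) ^ 2 + 4 * (c.e : ℝ) + 2) / 2 := by
        unfold BrHalf.q4
        rw [if_pos h4, hpr]; ring
      have hM' : (c.e : ℝ) / 2 ≤ (M : ℝ) - 1 := by
        have : c.e + 2 ≤ 2 * M := by omega
        have := (Nat.cast_le (α := ℝ)).mpr this
        push_cast at this
        linarith
      refine arith _ _ _ _ _ _ _ hn hz he2 hL hmain hM' ?_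
      rw [hq]; ring
    · -- `p = 4 t + 3`
      have hq : BrHalf.q4 p = ((c.e : ℝ) + 1) ^ 2 / 2 := by
        unfold BrHalf.q4
        rw [if_neg (by omega), hpr]; ring
      have hM' : ((c.e : ℝ) - 1) / 2 ≤ (M : ℝ) - 1 := by
        have : c.e + 1 ≤ 2 * M := by omega
        have := (Nat.cast_le (α := ℝ)).mpr this
        push_cast at this
        linarith
      refine arith _ _ _ _ _ _ _ hn hz he2 hL hmain hM' ?_
      rw [hq]; ring
  have : ((c.n : ℕ) : ℝ) ≤ ((p + 1 : ℕ) : ℝ) := by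
    push_cast
    rw [hpr]; linarith
  exact_mod_cast this

end Cfsg.Agent.Lib.Helper65.BrCGoal
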