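import Mathlib
import Cfsg.Agent.Lib.Lead.BrHalfStmt
import Cfsg.Agent.Lib.CT.Kernel
import Cfsg.Agent.Lib.CT.KnUtil
import Cfsg.Agent.Lib.CT.Wedderburn
import Cfsg.Agent.Lib.CT.Ops

/-! S4504 part C, piece Small: `|ξ g| ≤ 1` for `p`-regular non-central `g`. -/

set_option autoImplicit false

namespace Cfsg.Agent.Lib.Helper65.BrCSmall

open Cfsg Cfsg.Agent.Lib.Lead
open scoped ComplexConjugate Classical

universe u

theorem main (hKEx : BrHalf.KEx.{u}) (hTG : BrHalf.TG.{u}) (hLE : BrHalf.LE.{u}) :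
    BrHalf.Small.{u} := by
  intro L _ _ p _ c g hreg hnc
  obtain ⟨k, hk⟩ := hKEx p c
  have h1 := hTG p c k hk g hreg
  have h2 := hLE p c k hk g hreg
  have hn : (0 : ℝ) < (c.n : ℝ) := by
    have : 0 < c.n := Nat.card_pos
    exact_mod_cast this
  have hchar : IsCharacter L c.ξ := Cfsg.Agent.Lib.CT.Ops.IsIrrCharacter.isCharacter c.hξ
  have hdeg : 2 * c.e + 1 = p := c.hdeg
  have hpr : (p : ℝ) = 2 * (c.e : ℝ) + 1 := by
    have := congrArg (Nat.cast : ℕ → ℝ) hdeg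
    push_cast at this
    linarith
  have hre : (c.ξ 1).re = (c.e : ℝ) := by
    have h := Cfsg.Agent.Lib.CT.Wedderburn.char_natCast_charDegree hchar
    have h' := congrArg Complex.re h
    rw [Complex.natCast_re] at h'
    exact h'.symm
  have hle : ‖c.ξ g‖ ≤ (c.e : ℝ) := by
    rw [← hre]; exact Cfsg.Agent.Lib.CT.KnUtil.norm_le_apply_one hchar g
  have hne : ‖c.ξ g‖ ≠ (c.e : ℝ) := by
    intro h
    apply hnc
    rw [← hre] at h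
    exact (Cfsg.Agent.Lib.CT.Kernel.norm_eq_iff_mem_center c.hξ c.hfaith g).mp h
  have hlt : ‖c.ξ g‖ < (c.e : ℝ) := lt_of_le_of_ne hle hne
  have h0 := norm_nonneg (c.ξ g)
  -- `(p + 1) t ≤ p - 1 + 2 t²`
  have h3 : ((p : ℝ) + 1) * ‖c.ξ g‖ ≤ (p : ℝ) - 1 + 2 * ‖c.ξ g‖ ^ 2 := by
    have hp1 : (0 : ℝ) < (p : ℝ) + 1 := by positivity
    have h4 : ((p : ℝ) + 1) * (2 * (c.n : ℝ) * ‖c.ξ g‖) ≤
        2 * (c.n : ℝ) * ((p : ℝ) - 1 + 2 * ‖c.ξ g‖ ^ 2) := by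
      rw [← h1]
      exact mul_le_mul_of_nonneg_left h2 hp1.le
    have h5 : (2 * (c.n : ℝ)) * (((p : ℝ) + 1) * ‖c.ξ g‖) ≤
        (2 * (c.n : ℝ)) * ((p : ℝ) - 1 + 2 * ‖c.ξ g‖ ^ 2) := by
      calc (2 * (c.n : ℝ)) * (((p : ℝ) + 1) * ‖c.ξ g‖)
          = ((p : ℝ) + 1) * (2 * (c.n : ℝ) * ‖c.ξ g‖) := by ring
        _ ≤ 2 * (c.n : ℝ) * ((p : ℝ) - 1 + 2 * ‖c.ξ g‖ ^ 2) := h4
    exact le_of_mul_le_mul_left h5 (by positivity)
  rw [hpr] at h3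
  -- `(t - 1) (t - e) ≥ 0` and `t < e`
  by_contra hcon
  have hcon' : 1 < ‖c.ξ g‖ := not_le.mp hcon
  nlinarith [mul_pos (sub_pos.mpr hcon') (sub_pos.mpr hlt)]

end Cfsg.Agent.Lib.Helper65.BrCSmall
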