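import Mathlib
import Cfsg.Agent.Lib.Helper76.BrRBStmt
import Cfsg.Agent.Lib.CT.Wedderburn
import Cfsg.Agent.Lib.CT.Ops
import Cfsg.Agent.Lib.CT.Clifford
import Cfsg.Agent.Lib.Helper81.BrA1

/-! S4504 parts R+B, piece HBF: all nontrivial constituents have excess zero. -/

set_option autoImplicit false

namespace Cfsg.Agent.Lib.Helper65.BrRBHBF

open Cfsg Cfsg.Agent.Lib.Helper76
open scoped ComplexConjugate Classical

universe u

theorem main : BrRB.HBF.{u} := by
  intro L _ _ p _ c hExc hSum hHA ψ hnt hm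
  have hfin := Cfsg.Agent.Lib.CT.Wedderburn.finite_irrCharacter L
  have hft : Fintype (IrrCharacter L) := Fintype.ofFinite _
  rw [finsum_eq_sum_of_fintype] at hSum
  have hξchar : IsCharacter L c.ξ := Cfsg.Agent.Lib.CT.Ops.IsIrrCharacter.isCharacter c.hξ
  have hΦ : IsCharacter L (fun g => c.ξ g * conj (c.ξ g)) :=
    Cfsg.Agent.Lib.Helper81.BrA1.isCharacter_mul_conj hξchar hξchar
  have hLpos : 0 < Nat.card L := Nat.card_pos
  have hppos : 0 < p := (Fact.out : p.Prime).pos
  -- the multiplicities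
  have hmlt : ∀ χ : IrrCharacter L, ∃ m : ℕ,
      BrRB.mlt c.ξ (χ : L → ℂ) = (Nat.card L : ℂ) * (m : ℂ) := by
    intro χ
    obtain ⟨m, hm⟩ := Cfsg.Agent.Lib.CT.Clifford.classInner_char_nat hΦ
      (Cfsg.Agent.Lib.CT.Ops.IsIrrCharacter.isCharacter χ.2)
    refine ⟨m, ?_⟩
    rw [← hm]
    unfold classInner BrRB.mlt
    have h0 : (Nat.card L : ℂ) ≠ 0 := Nat.cast_ne_zero.mpr hLpos.ne'
    rw [← mul_assoc, mul_inv_cancel₀ h0, one_mul]
  -- each term is a natural number, and it vanishes only in the case of equality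
  have hterm : ∀ χ : IrrCharacter L, ∃ r : ℕ,
      (if (∃ g, (χ : L → ℂ) g ≠ 1) then
        BrRB.mlt c.ξ (χ : L → ℂ) * (2 * (p : ℂ) * (χ : L → ℂ) 1 -
          ((p : ℂ) + 1) * BrRB.sP c.P (χ : L → ℂ)) else 0) = (r : ℂ) ∧
      ((∃ g, (χ : L → ℂ) g ≠ 1) → BrRB.mlt c.ξ (χ : L → ℂ) ≠ 0 → r = 0 →
        BrRB.HBc c (χ : L → ℂ)) := by
    intro χ
    by_cases hχnt : ∃ g, (χ : L → ℂ) g ≠ 1
    · by_cases hχm : BrRB.mlt c.ξ (χ : L → ℂ) = 0
      · refine ⟨0, ?_, fun _ h => absurd hχm h⟩
        rw [if_pos hχnt, hχm, zero_mul, Nat.cast_zero]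
      · obtain ⟨f, hf, hle, heq⟩ := hExc χ hχnt hχm
        obtain ⟨m, hmm⟩ := hmlt χ
        have hdeg : ((charDegree (χ : L → ℂ) : ℕ) : ℂ) = (χ : L → ℂ) 1 :=
          Cfsg.Agent.Lib.CT.Wedderburn.char_natCast_charDegree
            (Cfsg.Agent.Lib.CT.Ops.IsIrrCharacter.isCharacter χ.2)
        have hm0 : m ≠ 0 := by
          rintro rfl
          apply hχm
          rw [hmm, Nat.cast_zero, mul_zero]
        obtain ⟨d, hd⟩ : ∃ d : ℕ, 2 * charDegree (χ : L → ℂ) = (p + 1) * f + d :=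
          ⟨2 * charDegree (χ : L → ℂ) - (p + 1) * f, by omega⟩
        refine ⟨Nat.card L * m * p * d, ?_, ?_⟩
        · rw [if_pos hχnt, hmm, hf, ← hdeg]
          have hd' : (2 : ℂ) * ((charDegree (χ : L → ℂ) : ℕ) : ℂ) = ((p : ℂ) + 1) * (f : ℂ) + (d : ℂ) := by
            exact_mod_cast hd
          push_cast
          linear_combination (Nat.card L : ℂ) * (m : ℂ) * (p : ℂ) * hd'
        · intro _ _ hr
          have hd0 : d = 0 := by
            rcases Nat.mul_eq_zero.mp hr with h | h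
            · rcases Nat.mul_eq_zero.mp h with h | h
              · rcases Nat.mul_eq_zero.mp h with h | h
                · omega
                · exact absurd h hm0
              · omega
            · exact h
          rw [hd0, add_zero] at hd
          obtain ⟨hcase, hker⟩ := heq hd.symm
          refine ⟨?_, ?_, ?_⟩
          · rw [hf, ← hdeg]
            have hd' : (2 : ℂ) * ((charDegree (χ : L → ℂ) : ℕ) : ℂ) = ((p : ℂ) + 1) * (f : ℂ) := by
              exact_mod_cast hd
            linear_combination (-(p : ℂ)) * hd'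
          · rcases hcase with h | h
            · omega
            · omega
          · intro k hk hreg
            exact hker k hk hreg (hHA χ hχm k hk)
    · refine ⟨0, ?_, fun h => absurd h hχnt⟩
      rw [if_neg hχnt, Nat.cast_zero]
  choose r hr1 hr2 using hterm
  have hsum' : ∑ χ : IrrCharacter L, (r χ : ℂ) = 0 := by
    rw [← hSum]
    exact Finset.sum_congr rfl fun χ _ => (hr1 χ).symm
  have hsum'' : ∑ χ : IrrCharacter L, r χ = 0 := by
    have : ((∑ χ : IrrCharacter L, r χ : ℕ) : ℂ) = 0 := by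
      rw [Nat.cast_sum]; exact hsum'
    exact_mod_cast this
  have hzero : r ψ = 0 := by
    have := (Finset.sum_eq_zero_iff.mp hsum'') ψ (Finset.mem_univ ψ)
    exact this
  exact hr2 ψ hnt hm hzero

end Cfsg.Agent.Lib.Helper65.BrRBHBF
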