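import Mathlib
import Cfsg.Agent.Lib.Helper76.BrRBStmt
import Cfsg.Agent.Lib.Helper81.BrT2

/-! S4504 parts R+B, piece PHI: `∑_{u ∈ P} |ξ (u k)|^2 = p e` for `k ∈ C`. -/

set_option autoImplicit false

namespace Cfsg.Agent.Lib.Helper65.BrRBPHI

open Cfsg Cfsg.Agent.Lib.Helper76
open scoped ComplexConjugate Classical

universe u

theorem main (hINJ : BrRB.INJ.{u}) : BrRB.PHI.{u} := by
  intro L _ _ p _ c S ψ₀ hOrb hidx k hk
  have hinj := hINJ p c S ψ₀ hOrb hidx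
  obtain ⟨hψ₀, hcard, hξS, hconjS⟩ := hOrb
  have hPcyc : IsCyclic (c.P : Subgroup L) := isCyclic_of_prime_card c.hP
  have hPC : (c.P : Subgroup L) ≤ Subgroup.centralizer ((c.P : Subgroup L) : Set L) := by
    intro a ha
    rw [Subgroup.mem_centralizer_iff]
    intro b hb
    have := mul_comm' (⟨b, hb⟩ : (c.P : Subgroup L)) ⟨a, ha⟩
    exact congrArg Subtype.val this
  -- values of linear characters have norm one
  have hnorm : ∀ (μ : ↥(Subgroup.centralizer ((c.P : Subgroup L) : Set L)) →* ℂˣ)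
      (x : ↥(Subgroup.centralizer ((c.P : Subgroup L) : Set L))),
      ((μ x : ℂˣ) : ℂ) * conj ((μ x : ℂˣ) : ℂ) = 1 := by
    intro μ x
    have h1 : ((μ x : ℂˣ) : ℂ) ^
        Fintype.card ↥(Subgroup.centralizer ((c.P : Subgroup L) : Set L)) = 1 := by
      rw [← Units.val_pow_eq_pow_val, ← map_pow, pow_card_eq_one, map_one, Units.val_one]
    have h2 : ‖((μ x : ℂˣ) : ℂ)‖ = 1 :=
      Complex.norm_eq_one_of_pow_eq_one h1 Fintype.card_ne_zero
    rw [Complex.mul_conj, Complex.normSq_eq_norm_sq, h2]; norm_num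
  -- rewrite `sPt` as a sum over `P`
  have h1 : BrRB.sPt c.P (fun g => c.ξ g * conj (c.ξ g)) k =
      ∑ u : (c.P : Subgroup L), c.ξ ((u : L) * k) * conj (c.ξ ((u : L) * k)) := by
    unfold BrRB.sPt
    rw [← Finset.sum_filter]
    exact Finset.sum_subtype (Finset.univ.filter (· ∈ (c.P : Subgroup L))) (by simp)
      (fun u => c.ξ (u * k) * conj (c.ξ (u * k)))
  rw [h1]
  -- expansion of `ξ (u k)`
  have h2 : ∀ u : (c.P : Subgroup L), c.ξ ((u : L) * k) =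
      ∑ μ ∈ S, (((μ.comp (Subgroup.inclusion hPC)) u : ℂˣ) : ℂ) * ((μ ⟨k, hk⟩ : ℂˣ) : ℂ) := by
    intro u
    have h := hξS (Subgroup.inclusion hPC u * ⟨k, hk⟩)
    have e : ((Subgroup.inclusion hPC u * ⟨k, hk⟩ :
        ↥(Subgroup.centralizer ((c.P : Subgroup L) : Set L))) : L) = (u : L) * k := rfl
    rw [e] at h
    rw [h]
    apply Finset.sum_congr rfl
    intro μ _
    rw [map_mul, Units.val_mul]
    rfl
  have hA : ∀ u : (c.P : Subgroup L), c.ξ ((u : L) * k) * conj (c.ξ ((u : L) * k)) =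
      ∑ μ ∈ S, ∑ μ' ∈ S,
        ((((μ.comp (Subgroup.inclusion hPC)) u : ℂˣ) : ℂ) *
          conj (((μ'.comp (Subgroup.inclusion hPC)) u : ℂˣ) : ℂ)) *
        (((μ ⟨k, hk⟩ : ℂˣ) : ℂ) * conj ((μ' ⟨k, hk⟩ : ℂˣ) : ℂ)) := by
    intro u
    rw [h2 u, map_sum, Finset.sum_mul_sum]
    apply Finset.sum_congr rfl
    intro μ _
    apply Finset.sum_congr rfl
    intro μ' _
    rw [map_mul]; ring
  rw [Finset.sum_congr rfl (fun u _ => hA u), Finset.sum_comm]
  have hcardP : (Fintype.card ↥(c.P : Subgroup L) : ℂ) = (p : ℂ) := by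
    rw [Fintype.card_eq_nat_card, c.hP]
  have hB : ∀ μ ∈ S, ∑ u : (c.P : Subgroup L), ∑ μ' ∈ S,
        ((((μ.comp (Subgroup.inclusion hPC)) u : ℂˣ) : ℂ) *
          conj (((μ'.comp (Subgroup.inclusion hPC)) u : ℂˣ) : ℂ)) *
        (((μ ⟨k, hk⟩ : ℂˣ) : ℂ) * conj ((μ' ⟨k, hk⟩ : ℂˣ) : ℂ)) = (p : ℂ) := by
    intro μ hμ
    rw [Finset.sum_comm]
    have hC : ∀ μ' ∈ S, ∑ u : (c.P : Subgroup L),
        ((((μ.comp (Subgroup.inclusion hPC)) u : ℂˣ) : ℂ) *
          conj (((μ'.comp (Subgroup.inclusion hPC)) u : ℂˣ) : ℂ)) *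
        (((μ ⟨k, hk⟩ : ℂˣ) : ℂ) * conj ((μ' ⟨k, hk⟩ : ℂˣ) : ℂ)) =
        if μ = μ' then (p : ℂ) else 0 := by
      intro μ' hμ'
      rw [← Finset.sum_mul, Cfsg.Agent.Lib.Helper81.BrT2.orth_lin]
      by_cases hμμ' : μ = μ'
      · subst hμμ'
        rw [if_pos rfl, if_pos rfl, hnorm, mul_one, hcardP]
      · have hne : μ.comp (Subgroup.inclusion hPC) ≠ μ'.comp (Subgroup.inclusion hPC) := by
          intro h
          apply hμμ'
          apply hinj μ hμ μ' hμ'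
          intro x hx
          have := DFunLike.congr_fun h ⟨(x : L), hx⟩
          exact this
        rw [if_neg hne, if_neg hμμ', zero_mul]
    rw [Finset.sum_congr rfl hC, Finset.sum_ite_eq, if_pos hμ]
  rw [Finset.sum_congr rfl hB, Finset.sum_const, hcard, nsmul_eq_mul, mul_comm]

end Cfsg.Agent.Lib.Helper65.BrRBPHI
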