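import Mathlib
import Cfsg.Agent.Lib.Helper92.D11Stmt

/-! S0679, piece NOSIX: if the even elements of `G` act 4-transitively on 11 points and the
non-trivial ones fix at most three points, no involution of `G` moves exactly 6 points. -/

set_option autoImplicit false

namespace Cfsg.Agent.Lib.Helper65.D11NOSIX

open Equiv

universe u

/-- A permutation fixing `k` distinct points moves at most `card α - k` points. -/
theorem support_add_le {α : Type*} [Fintype α] [DecidableEq α] (f : Perm α) {k : ℕ}
    (p : Fin k → α) (hp : Function.Injective p) (hf : ∀ i, f (p i) = p i) :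
    f.support.card + k ≤ Fintype.card α := by
  have h1 : f.support ⊆ (Finset.univ.image p)ᶜ := by
    intro x hx
    rw [Finset.mem_compl, Finset.mem_image]
    rintro ⟨i, -, rfl⟩
    exact (Equiv.Perm.mem_support.mp hx) (hf i)
  have h2 := Finset.card_le_card h1
  rw [Finset.card_compl, Finset.card_image_of_injective _ hp, Finset.card_univ,
    Fintype.card_fin] at h2
  have h3 : k ≤ Fintype.card α := by
    have := Fintype.card_le_of_injective p hp
    simpa using this
  omega

theorem main : Cfsg.Agent.Lib.Helper92.D11Stmt.NoSix.{u} := by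
  intro α _ _ hα G hsharp h4 s hsG hss hs6
  have h5 : Fact (Nat.Prime 5) := ⟨by norm_num⟩
  -- the five fixed points of `s`
  have hF : (s.support)ᶜ.card = 5 := by rw [Finset.card_compl, hα, hs6]
  obtain ⟨a, ha_inj, ha_fix, ha_surj⟩ : ∃ a : Fin 5 → α, Function.Injective a ∧
      (∀ i, s (a i) = a i) ∧ ∀ x, s x = x → ∃ i, a i = x := by
    let e := Finset.equivFinOfCardEq hF
    refine ⟨fun i => (e.symm i : α), ?_, ?_, ?_⟩
    · intro i j hij
      exact e.symm.injective (Subtype.ext hij)
    · intro i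
      have := (e.symm i).2
      rw [Finset.mem_compl, Equiv.Perm.mem_support, not_not] at this
      exact this
    · intro x hx
      have hxF : x ∈ (s.support)ᶜ := by
        rw [Finset.mem_compl, Equiv.Perm.mem_support, not_not]; exact hx
      refine ⟨e ⟨x, hxF⟩, ?_⟩
      show ((e.symm (e ⟨x, hxF⟩) : _) : α) = x
      rw [Equiv.symm_apply_apply]
  obtain ⟨g, hgG, hgs, hg⟩ := h4 (fun i => a i.castSucc) (fun i => a i.succ)
    (fun i j hij => Fin.castSucc_injective _ (ha_inj hij))
    (fun i j hij => Fin.succ_injective _ (ha_inj hij))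
  have hg' : ∀ i : Fin 4, g (a i.castSucc) = a i.succ := hg
  have h01 : g (a 0) = a 1 := hg' 0
  have h12 : g (a 1) = a 2 := hg' 1
  have h23 : g (a 2) = a 3 := hg' 2
  have h34 : g (a 3) = a 4 := hg' 3
  have hsinv : s⁻¹ = s := inv_eq_of_mul_eq_one_left hss
  -- `g` commutes with `s`
  have hh : g * s * g⁻¹ * s = 1 := by
    by_contra hne
    have hG : g * s * g⁻¹ * s ∈ G := G.mul_mem (G.mul_mem (G.mul_mem hgG hsG) (G.inv_mem hgG)) hsG
    have hsign : Perm.sign (g * s * g⁻¹ * s) = 1 := by
      rw [Perm.sign_mul, Perm.sign_mul, Perm.sign_mul, Perm.sign_inv, hgs, one_mul, mul_one,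
        ← Perm.sign_mul, hss, Perm.sign_one]
    have h8 := hsharp _ hG hsign hne
    have hfix : ∀ i : Fin 4, (g * s * g⁻¹ * s) (a i.succ) = a i.succ := by
      intro i
      show g (s (g⁻¹ (s (a i.succ)))) = a i.succ
      have hgi : ∀ x, g⁻¹ (g x) = x := fun x => g.symm_apply_apply x
      rw [ha_fix, ← hg' i, hgi, ha_fix]
    have h7 := support_add_le (g * s * g⁻¹ * s) (fun i : Fin 4 => a i.succ)
      (fun i j hij => Fin.succ_injective _ (ha_inj hij)) hfix
    omega
  have hcomm : g * s = s * g := by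
    have h1 : g * s * g⁻¹ = s := by
      have := mul_eq_one_iff_eq_inv.mp hh
      rw [hsinv] at this
      exact this
    exact mul_inv_eq_iff_eq_mul.mp h1
  have hcomm' : ∀ x, g (s x) = s (g x) := by
    intro x
    have := congrArg (fun f : Perm α => f x) hcomm
    exact this
  -- `g` maps the last fixed point to the first
  have h40 : g (a 4) = a 0 := by
    obtain ⟨i, hi⟩ := ha_surj (g (a 4)) (by rw [← hcomm', ha_fix])
    rcases Fin.eq_zero_or_eq_succ i with rfl | ⟨j, rfl⟩
    · exact hi.symm
    · exfalso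
      rw [← hg' j] at hi
      have h1 : j.castSucc = (4 : Fin 5) := ha_inj (g.injective hi)
      have h2 : j.castSucc < Fin.last 4 := Fin.castSucc_lt_last j
      have h3 : (4 : Fin 5) = Fin.last 4 := rfl
      rw [h1, h3] at h2
      exact lt_irrefl _ h2
  have e5 : g ^ 5 = g * g * g * g * g := by simp [pow_succ]
  have hp0 : (g ^ 5) (a 0) = a 0 := by
    rw [e5]; simp only [Perm.mul_apply]; rw [h01, h12, h23, h34, h40]
  have hp1 : (g ^ 5) (a 1) = a 1 := by
    rw [e5]; simp only [Perm.mul_apply]; rw [h12, h23, h34, h40, h01]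
  have hp2 : (g ^ 5) (a 2) = a 2 := by
    rw [e5]; simp only [Perm.mul_apply]; rw [h23, h34, h40, h01, h12]
  have hp3 : (g ^ 5) (a 3) = a 3 := by
    rw [e5]; simp only [Perm.mul_apply]; rw [h34, h40, h01, h12, h23]
  have hp4 : (g ^ 5) (a 4) = a 4 := by
    rw [e5]; simp only [Perm.mul_apply]; rw [h40, h01, h12, h23, h34]
  have hpow : ∀ i : Fin 5, (g ^ 5) (a i) = a i := by
    intro i
    fin_cases i
    exacts [hp0, hp1, hp2, hp3, hp4]
  have hg5 : g ^ 5 = 1 := by
    by_contra hne
    have hsign : Perm.sign (g ^ 5) = 1 := by rw [map_pow, hgs, one_pow]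
    have h8 := hsharp _ (G.pow_mem hgG 5) hsign hne
    have h6 := support_add_le (g ^ 5) a ha_inj hpow
    omega
  have hg1 : g ≠ 1 := by
    intro h
    rw [h] at h01
    have h1 : (0 : Fin 5) = 1 := ha_inj h01
    exact absurd h1 (by decide)
  have hord : orderOf g = 5 := orderOf_eq_prime hg5 hg1
  obtain ⟨k, hk⟩ := Equiv.Perm.cycleType_prime_order (σ := g) (by rw [hord]; norm_num)
  rw [hord] at hk
  have hsum : g.cycleType.sum = g.support.card := Equiv.Perm.sum_cycleType g
  rw [hk, Multiset.sum_replicate, smul_eq_mul] at hsum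
  have h8 := hsharp g hgG hgs hg1
  have hle : g.support.card ≤ 11 := by rw [← hα]; exact Finset.card_le_univ _
  have h10 : g.support.card = 10 := by omega
  have hcomp : (g.support)ᶜ.card = 1 := by rw [Finset.card_compl, hα, h10]
  obtain ⟨w, hw⟩ := Finset.card_eq_one.mp hcomp
  have hgw : ∀ x, g x = x ↔ x = w := by
    intro x
    have : x ∈ (g.support)ᶜ ↔ x ∈ ({w} : Finset α) := by rw [hw]
    rw [Finset.mem_compl, Equiv.Perm.mem_support, not_not, Finset.mem_singleton] at this
    exact this
  have hsw : s w = w := (hgw (s w)).mp (by rw [hcomm', (hgw w).mpr rfl])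
  obtain ⟨i, hi⟩ := ha_surj w hsw
  have hgi : g (a i) = a i := by rw [hi]; exact (hgw w).mpr rfl
  fin_cases i
  · have h1 : (1 : Fin 5) = 0 := ha_inj (h01.symm.trans hgi)
    exact absurd h1 (by decide)
  · have h1 : (2 : Fin 5) = 1 := ha_inj (h12.symm.trans hgi)
    exact absurd h1 (by decide)
  · have h1 : (3 : Fin 5) = 2 := ha_inj (h23.symm.trans hgi)
    exact absurd h1 (by decide)
  · have h1 : (4 : Fin 5) = 3 := ha_inj (h34.symm.trans hgi)
    exact absurd h1 (by decide)
  · have h1 : (0 : Fin 5) = 4 := ha_inj (h40.symm.trans hgi)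
    exact absurd h1 (by decide)

end Cfsg.Agent.Lib.Helper65.D11NOSIX
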