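import Mathlib
import Cfsg.Agent.Lib.Helper92.D11Stmt

/-! S0679, piece ODD5: an involution commuting with an element of cycle type `5, 5` on 11
points is an odd permutation. -/

set_option autoImplicit false

namespace Cfsg.Agent.Lib.Helper65.D11ODD5

open Equiv

universe u

theorem main : Cfsg.Agent.Lib.Helper92.D11Stmt.Odd5.{u} := by
  intro α _ _ hα t z ht hz hzc htz
  have h5 : Fact (Nat.Prime 5) := ⟨by norm_num⟩
  -- the cycle type of `z`
  obtain ⟨n, hn⟩ := Equiv.Perm.cycleType_prime_order (σ := z) (by rw [hz]; norm_num)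
  rw [hz] at hn
  have hsum : z.cycleType.sum = z.support.card := Equiv.Perm.sum_cycleType z
  have hle : z.support.card ≤ 11 := by rw [← hα]; exact Finset.card_le_univ _
  rw [hn, Multiset.sum_replicate, smul_eq_mul] at hsum
  have hn0 : n ≠ 0 := by
    rintro rfl
    apply hzc
    rw [← Equiv.Perm.card_cycleType_eq_one, hn]
    simp
  have hzs : z.support.card = 10 := by omega
  -- the unique fixed point of `z`
  have hcomp : (z.support)ᶜ.card = 1 := by
    rw [Finset.card_compl, hα, hzs]
  obtain ⟨c, hc⟩ := Finset.card_eq_one.mp hcomp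
  have hzc' : ∀ x, z x = x ↔ x = c := by
    intro x
    have : x ∈ (z.support)ᶜ ↔ x ∈ ({c} : Finset α) := by rw [hc]
    rw [Finset.mem_compl, Equiv.Perm.mem_support, not_not, Finset.mem_singleton] at this
    exact this
  have hcomm : ∀ x, t (z x) = z (t x) := by
    intro x
    have := congrArg (fun f : Perm α => f x) htz
    exact this
  have htc : t c = c := by
    rw [← hzc']
    rw [← hcomm, (hzc' c).mpr rfl]
  -- `z` acts on the fixed points of `t`
  have hinv : ∀ x, t (z x) = z x ↔ t x = x := by
    intro x
    rw [hcomm]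
    exact z.injective.eq_iff
  have hz5 : z ^ 5 = 1 := by rw [← hz]; exact pow_orderOf_eq_one z
  have hf5 : (z.subtypePerm (p := fun x => t x = x) hinv) ^ 5 ^ 1 = 1 := by
    rw [pow_one, Equiv.Perm.subtypePerm_pow]
    ext x
    simp [hz5]
  have hmod := Equiv.Perm.card_compl_support_modEq (p := 5) (n := 1) hf5
  have hsupp : ((z.subtypePerm (p := fun x => t x = x) hinv).support)ᶜ = {⟨c, htc⟩} := by
    ext x
    rw [Finset.mem_compl, Equiv.Perm.mem_support, not_not, Finset.mem_singleton]
    constructor
    · intro h
      have h1 : z x.1 = x.1 := congrArg Subtype.val h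
      exact Subtype.ext ((hzc' _).mp h1)
    · intro h
      apply Subtype.ext
      show z x.1 = x.1
      rw [h]
      exact (hzc' c).mpr rfl
  rw [hsupp, Finset.card_singleton] at hmod
  -- the number of fixed points of `t`
  have hfix : Fintype.card {x // t x = x} = 11 - t.support.card := by
    rw [Fintype.card_subtype, ← hα, ← Finset.card_compl]
    congr 1
    ext x
    simp [Equiv.Perm.mem_support]
  rw [hfix] at hmod
  -- the cycle type of `t`
  obtain ⟨m, hm⟩ := Equiv.Perm.cycleType_prime_order (σ := t) (by rw [ht]; norm_num)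
  rw [ht] at hm
  have hsumt : t.cycleType.sum = t.support.card := Equiv.Perm.sum_cycleType t
  have hlet : t.support.card ≤ 11 := by rw [← hα]; exact Finset.card_le_univ _
  rw [hm, Multiset.sum_replicate, smul_eq_mul] at hsumt
  have hm4 : m = 4 := by
    have h1 : (1 : ℕ) % 5 = (11 - t.support.card) % 5 := hmod
    omega
  rw [Equiv.Perm.sign_of_cycleType, hm, hm4]
  simp
  decide

end Cfsg.Agent.Lib.Helper65.D11ODD5
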