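import Mathlib
import Cfsg.Agent.Lib.Helper89.DSStmt

/-! S0508, piece ODATA2: the TI-property of `K = O ⊔ A`. -/

set_option autoImplicit false

namespace Cfsg.Agent.Lib.Helper65.DSODATA2

open Cfsg.Agent.Lib.Helper89.DSStmt

universe u

theorem odd_dvd_two_pow {n k : ℕ} (hodd : Odd n) (hd : n ∣ 2 ^ k) : n = 1 := by
  have hc : Nat.Coprime n (2 ^ k) := Nat.Coprime.pow_right k (Nat.coprime_two_right.mpr hodd)
  exact Nat.Coprime.eq_one_of_dvd hc hd

/-- an element of a Sylow 2-subgroup has 2-power order -/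
theorem orderOf_dvd_two_pow {G : Type u} [Group G] (S : Sylow 2 G) {a : G}
    (ha : a ∈ (S : Subgroup G)) : ∃ k : ℕ, orderOf a ∣ 2 ^ k := by
  obtain ⟨k, hk⟩ := S.isPGroup' ⟨a, ha⟩
  refine ⟨k, orderOf_dvd_of_pow_eq_one ?_⟩
  have := congrArg Subtype.val hk
  simpa using this

/-- the unique involution of a cyclic group -/
theorem uniq_inv {G : Type u} [Group G] [Finite G] (A : Subgroup G) (hA : IsCyclic A) {t : G}
    (htA : t ∈ A) (ht : orderOf t = 2) {a : G} (ha : a ∈ A) (ha2 : a * a = 1) :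
    a = 1 ∨ a = t := by
  classical
  by_contra hcon
  rw [not_or] at hcon
  obtain ⟨h1, h2⟩ := hcon
  have : Fintype A := Fintype.ofFinite A
  have hle := IsCyclic.card_pow_eq_one_le (α := A) (n := 2) (by norm_num)
  have ht1 : t ≠ 1 := by
    intro h; rw [h, orderOf_one] at ht; norm_num at ht
  have ht2 : t ^ 2 = 1 := by rw [← ht]; exact pow_orderOf_eq_one t
  have hsub : ({1, ⟨t, htA⟩, ⟨a, ha⟩} : Finset A) ⊆
      Finset.univ.filter (fun x : A => x ^ 2 = 1) := by
    intro x hx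
    simp only [Finset.mem_insert, Finset.mem_singleton] at hx
    simp only [Finset.mem_filter, Finset.mem_univ, true_and]
    rcases hx with rfl | rfl | rfl
    · simp
    · apply Subtype.ext; simpa using ht2
    · apply Subtype.ext
      show a ^ 2 = 1
      rw [pow_two]; exact ha2
  have hcard : ({1, ⟨t, htA⟩, ⟨a, ha⟩} : Finset A).card = 3 := by
    rw [Finset.card_insert_of_notMem, Finset.card_insert_of_notMem, Finset.card_singleton]
    · simp only [Finset.mem_singleton]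
      intro h
      exact h2 (congrArg Subtype.val h).symm
    · simp only [Finset.mem_insert, Finset.mem_singleton, not_or]
      refine ⟨fun h => ht1 (congrArg Subtype.val h).symm, fun h => h1 (congrArg Subtype.val h).symm⟩
  have := Finset.card_le_card hsub
  omega

/-- an involution of a subgroup containing a Sylow 2-subgroup is conjugate into it inside the
subgroup -/
theorem exists_conj_mem_sylow {G : Type u} [Group G] [Finite G] (S : Sylow 2 G) (C : Subgroup G)
    (hSC : (S : Subgroup G) ≤ C) {y : G} (hy : y ∈ C) (hy2 : y * y = 1) :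
    ∃ c ∈ C, c * y * c⁻¹ ∈ (S : Subgroup G) := by
  have hP : IsPGroup 2 (Subgroup.zpowers (⟨y, hy⟩ : C)) := by
    rintro ⟨z, hz⟩
    obtain ⟨i, rfl⟩ := Subgroup.mem_zpowers_iff.mp hz
    refine ⟨1, ?_⟩
    apply Subtype.ext
    have h2 : (⟨y, hy⟩ : C) ^ 2 = 1 := by
      apply Subtype.ext
      show y ^ 2 = 1
      rw [pow_two]; exact hy2
    show ((⟨y, hy⟩ : C) ^ i) ^ 2 ^ 1 = 1
    rw [pow_one, ← zpow_natCast, ← zpow_mul, mul_comm, zpow_mul, zpow_natCast, h2, one_zpow]
  obtain ⟨Q, hQ⟩ := hP.exists_le_sylow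
  obtain ⟨c, hc⟩ := MulAction.exists_smul_eq C Q (S.subtype hSC)
  refine ⟨c, c.2, ?_⟩
  have h1 : (⟨y, hy⟩ : C) ∈ (Q : Subgroup C) := hQ (Subgroup.mem_zpowers _)
  have h2 : c * ⟨y, hy⟩ * c⁻¹ ∈ ((c • Q : Sylow 2 C) : Subgroup C) := by
    rw [Sylow.coe_subgroup_smul]
    exact Subgroup.smul_mem_pointwise_smul _ _ _ h1
  rw [hc] at h2
  exact Subgroup.mem_subgroupOf.mp h2

theorem main : OData2.{u} := by
  intro hKMem G _ _ t S O ht htS htcent hOC hOodd hOnorm hAcyc hb hc g hg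
  classical
  have hAS : (S : Subgroup G) ⊓ Subgroup.centralizer (O : Set G) ≤ (S : Subgroup G) := inf_le_left
  have hAO : (S : Subgroup G) ⊓ Subgroup.centralizer (O : Set G) ≤
      Subgroup.centralizer (O : Set G) := inf_le_right
  have htO : t ∈ Subgroup.centralizer (O : Set G) := by
    rw [Subgroup.mem_centralizer_iff]
    intro o ho
    exact (Subgroup.mem_centralizer_iff.mp (hOC ho) t (Set.mem_singleton t)).symm
  have htA : t ∈ (S : Subgroup G) ⊓ Subgroup.centralizer (O : Set G) := ⟨htS, htO⟩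
  have ht2 : t * t = 1 := by rw [← pow_two, ← ht]; exact pow_orderOf_eq_one t
  have ht1 : t ≠ 1 := by
    intro h; rw [h, orderOf_one] at ht; norm_num at ht
  have hSC : (S : Subgroup G) ≤ Subgroup.centralizer ({t} : Set G) := by
    intro s hs
    rw [Subgroup.mem_centralizer_iff]
    intro h hh
    rw [Set.mem_singleton_iff] at hh
    subst hh
    exact (htcent s hs).symm
  have huniq : ∀ a ∈ (S : Subgroup G) ⊓ Subgroup.centralizer (O : Set G), a * a = 1 → a ≠ 1 →
      a = t := fun a ha ha2 hne => (uniq_inv _ hAcyc htA ht ha ha2).resolve_left hne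
  have hOpow : ∀ o ∈ O, o ^ Nat.card O = 1 := by
    intro o ho
    have h := pow_card_eq_one' (G := O) (x := ⟨o, ho⟩)
    have h' : ((⟨o, ho⟩ : O) ^ Nat.card O : O).1 = ((1 : O) : G) := congrArg Subtype.val h
    rw [Subgroup.coe_pow, Subgroup.coe_one] at h'
    exact h'
  have hA2 : ∀ a ∈ (S : Subgroup G) ⊓ Subgroup.centralizer (O : Set G),
      a ^ Nat.card O = 1 → a = 1 := by
    intro a ha ham
    obtain ⟨k, hk⟩ := orderOf_dvd_two_pow S (hAS ha)
    have h1 : orderOf a ∣ Nat.card O := orderOf_dvd_of_pow_eq_one ham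
    have h2 : Odd (orderOf a) := Odd.of_dvd_nat hOodd h1
    exact orderOf_eq_one_iff.mp (odd_dvd_two_pow h2 hk)
  have hO2 : ∀ o ∈ O, o * o = 1 → o = 1 := by
    intro o ho ho2
    have h1 : orderOf o ∣ 2 ^ 1 := orderOf_dvd_of_pow_eq_one (by rw [pow_one, pow_two]; exact ho2)
    have h2 : orderOf o ∣ Nat.card O := orderOf_dvd_of_pow_eq_one (hOpow o ho)
    have h3 : Odd (orderOf o) := Odd.of_dvd_nat hOodd h2
    exact orderOf_eq_one_iff.mp (odd_dvd_two_pow h3 h1)
  have hpow : ∀ o ∈ O, ∀ a ∈ (S : Subgroup G) ⊓ Subgroup.centralizer (O : Set G),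
      (o * a) ^ Nat.card O = a ^ Nat.card O := by
    intro o ho a ha
    have hcomm : Commute o a := Subgroup.mem_centralizer_iff.mp (hAO ha) o ho
    rw [hcomm.mul_pow, hOpow o ho, one_mul]
  rw [Subgroup.eq_bot_iff_forall]
  intro x hx
  obtain ⟨hxK, hxKg⟩ := Subgroup.mem_inf.mp hx
  by_contra hx1
  obtain ⟨o, ho, a, ha, rfl⟩ := hKMem G O _ hAO x hxK
  obtain ⟨x', hx'K, hx'⟩ := Subgroup.mem_map.mp hxKg
  obtain ⟨o', ho', a', ha', rfl⟩ := hKMem G O _ hAO x' hx'K
  have hconj : g * (o' * a') * g⁻¹ = o * a := hx'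
  apply hg
  suffices hgt : g * t * g⁻¹ = t by
    rw [Subgroup.mem_centralizer_iff]
    intro h hh
    rw [Set.mem_singleton_iff] at hh
    subst hh
    calc h * g = (g * h * g⁻¹) * g := by rw [hgt]
      _ = g * h := by group
  have hconjpow : g * (o' * a') ^ Nat.card O * g⁻¹ = (o * a) ^ Nat.card O := by
    rw [← hconj, conj_pow]
  by_cases hxm : (o * a) ^ Nat.card O = 1
  · -- the case `x ∈ O`
    have ham : a = 1 := hA2 a ha (by rw [← hpow o ho a ha]; exact hxm)
    have ham' : a' = 1 := by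
      apply hA2 a' ha'
      rw [← hpow o' ho' a' ha']
      have : (o' * a') ^ Nat.card O = g⁻¹ * (g * (o' * a') ^ Nat.card O * g⁻¹) * g := by group
      rw [this, hconjpow, hxm]; group
    subst ham; subst ham'
    rw [mul_one] at hconj hx1
    rw [mul_one] at hconj
    have ht'o : g * t * g⁻¹ * o = o * (g * t * g⁻¹) := by
      have h1 : t * o' = o' * t := Subgroup.mem_centralizer_iff.mp (hOC ho') t rfl
      rw [← hconj]
      calc g * t * g⁻¹ * (g * o' * g⁻¹) = g * (t * o') * g⁻¹ := by group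
        _ = g * (o' * t) * g⁻¹ := by rw [h1]
        _ = g * o' * g⁻¹ * (g * t * g⁻¹) := by group
    have ht'C : g * t * g⁻¹ ∈ Subgroup.centralizer ({t} : Set G) := by
      apply hc (Subgroup.zpowers o) (by rw [Subgroup.zpowers_le]; exact ho)
        (by rw [Ne, Subgroup.zpowers_eq_bot]; exact hx1)
      apply Subgroup.centralizer_le_normalizer
      rw [Subgroup.mem_centralizer_iff]
      intro h hh
      obtain ⟨i, rfl⟩ := Subgroup.mem_zpowers_iff.mp hh
      have hc1 : Commute o (g * t * g⁻¹) := ht'o.symm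
      exact hc1.zpow_left i
    have ht'2 : g * t * g⁻¹ * (g * t * g⁻¹) = 1 := by
      have : g * t * g⁻¹ * (g * t * g⁻¹) = g * (t * t) * g⁻¹ := by group
      rw [this, ht2]; group
    have ht'1 : g * t * g⁻¹ ≠ 1 := by
      intro h
      apply ht1
      have : t = g⁻¹ * (g * t * g⁻¹) * g := by group
      rw [this, h]; group
    obtain ⟨c, hcC, hcS⟩ := exists_conj_mem_sylow S _ hSC ht'C ht'2
    have hct : c * t = t * c := (Subgroup.mem_centralizer_iff.mp hcC t rfl).symm
    have hs2 : c * (g * t * g⁻¹) * c⁻¹ * (c * (g * t * g⁻¹) * c⁻¹) = 1 := by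
      have : c * (g * t * g⁻¹) * c⁻¹ * (c * (g * t * g⁻¹) * c⁻¹)
          = c * (g * t * g⁻¹ * (g * t * g⁻¹)) * c⁻¹ := by group
      rw [this, ht'2]; group
    have hs1 : c * (g * t * g⁻¹) * c⁻¹ ≠ 1 := by
      intro h
      apply ht'1
      have : g * t * g⁻¹ = c⁻¹ * (c * (g * t * g⁻¹) * c⁻¹) * c := by group
      rw [this, h]; group
    by_cases hsO : c * (g * t * g⁻¹) * c⁻¹ ∈ Subgroup.centralizer (O : Set G)
    · have h1 := huniq _ ⟨hcS, hsO⟩ hs2 hs1
      have : g * t * g⁻¹ = c⁻¹ * (c * (g * t * g⁻¹) * c⁻¹) * c := by group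
      rw [this, h1]
      calc c⁻¹ * t * c = c⁻¹ * (t * c) := by group
        _ = c⁻¹ * (c * t) := by rw [hct]
        _ = t := by group
    · exfalso
      have hinv := hb _ hcS hsO (c * o * c⁻¹) (hOnorm c hcC o ho)
      -- `t'` inverts `o`
      have h2 : g * t * g⁻¹ * o * (g * t * g⁻¹)⁻¹ = o⁻¹ := by
        have : g * t * g⁻¹ * o * (g * t * g⁻¹)⁻¹
            = c⁻¹ * (c * (g * t * g⁻¹) * c⁻¹ * (c * o * c⁻¹) * (c * (g * t * g⁻¹) * c⁻¹)⁻¹) * c := by
          group
        rw [this, hinv]; group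
      rw [ht'o, mul_inv_cancel_right] at h2
      apply hx1
      apply hO2 o ho
      calc o * o = o * o⁻¹ := by rw [← h2]
        _ = 1 := mul_inv_cancel o
  · -- the case `x ^ m ≠ 1`
    have hy : (o * a) ^ Nat.card O = a ^ Nat.card O := hpow o ho a ha
    have hy' : (o' * a') ^ Nat.card O = a' ^ Nat.card O := hpow o' ho' a' ha'
    rw [hy] at hxm hconjpow
    rw [hy'] at hconjpow
    have hyA : a ^ Nat.card O ∈ (S : Subgroup G) ⊓ Subgroup.centralizer (O : Set G) :=
      Subgroup.pow_mem _ ha _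
    have hy'A : a' ^ Nat.card O ∈ (S : Subgroup G) ⊓ Subgroup.centralizer (O : Set G) :=
      Subgroup.pow_mem _ ha' _
    obtain ⟨k, hk⟩ := orderOf_dvd_two_pow S (hAS hyA)
    obtain ⟨i, -, hi⟩ := (Nat.dvd_prime_pow Nat.prime_two).mp hk
    have hi0 : i ≠ 0 := by
      rintro rfl
      rw [pow_zero, orderOf_eq_one_iff] at hi
      exact hxm hi
    obtain ⟨j, rfl⟩ := Nat.exists_eq_succ_of_ne_zero hi0
    have hw2 : (a ^ Nat.card O) ^ 2 ^ j * (a ^ Nat.card O) ^ 2 ^ j = 1 := by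
      rw [← pow_add, ← two_mul, ← pow_succ', ← hi]
      exact pow_orderOf_eq_one _
    have hw1 : (a ^ Nat.card O) ^ 2 ^ j ≠ 1 := by
      apply pow_ne_one_of_lt_orderOf (by positivity)
      rw [hi]
      exact Nat.pow_lt_pow_right (by norm_num) (Nat.lt_succ_self j)
    have hwt := huniq _ (Subgroup.pow_mem _ hyA _) hw2 hw1
    have hconjw : g * (a' ^ Nat.card O) ^ 2 ^ j * g⁻¹ = (a ^ Nat.card O) ^ 2 ^ j := by
      rw [← hconjpow, conj_pow]
    have hw'2 : (a' ^ Nat.card O) ^ 2 ^ j * (a' ^ Nat.card O) ^ 2 ^ j = 1 := by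
      have : (a' ^ Nat.card O) ^ 2 ^ j * (a' ^ Nat.card O) ^ 2 ^ j
          = g⁻¹ * ((g * (a' ^ Nat.card O) ^ 2 ^ j * g⁻¹) *
            (g * (a' ^ Nat.card O) ^ 2 ^ j * g⁻¹)) * g := by group
      rw [this, hconjw, hw2]; group
    have hw'1 : (a' ^ Nat.card O) ^ 2 ^ j ≠ 1 := by
      intro h
      apply hw1
      rw [← hconjw, h]; group
    have hw't := huniq _ (Subgroup.pow_mem _ hy'A _) hw'2 hw'1
    rw [hw't, hwt] at hconjw
    exact hconjw

end Cfsg.Agent.Lib.Helper65.DSODATA2
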