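import Mathlib
import Cfsg.Agent.Lib.Helper89.DSStmt
import Cfsg.Agent.Lib.Helper65.DSODATA2

/-! S0508, piece ODATA1: the Brauer-Suzuki-Wall data `K = O ⊔ A`, `s ∈ S ∖ A`. -/

set_option autoImplicit false

namespace Cfsg.Agent.Lib.Helper65.DSODATA1

open Cfsg.Agent.Lib.Helper89.DSStmt Cfsg.Agent.Lib.Helper65.DSODATA2

universe u

theorem main : OData1.{u} := by
  intro hKMem G _ _ t S O ht htS htcent hOC hOodd hfact hAcyc hidx hb s hsS hsA hsinv
  classical
  obtain ⟨hs2, hsinvA⟩ := hsinv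
  have hAS : (S : Subgroup G) ⊓ Subgroup.centralizer (O : Set G) ≤ (S : Subgroup G) := inf_le_left
  have hAO : (S : Subgroup G) ⊓ Subgroup.centralizer (O : Set G) ≤
      Subgroup.centralizer (O : Set G) := inf_le_right
  have htO : t ∈ Subgroup.centralizer (O : Set G) := by
    rw [Subgroup.mem_centralizer_iff]
    intro o ho
    exact (Subgroup.mem_centralizer_iff.mp (hOC ho) t (Set.mem_singleton t)).symm
  have htA : t ∈ (S : Subgroup G) ⊓ Subgroup.centralizer (O : Set G) := ⟨htS, htO⟩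
  have hSC : (S : Subgroup G) ≤ Subgroup.centralizer ({t} : Set G) := by
    intro s hs
    rw [Subgroup.mem_centralizer_iff]
    intro h hh
    rw [Set.mem_singleton_iff] at hh
    subst hh
    exact (htcent s hs).symm
  have hOpow : ∀ o ∈ O, o ^ Nat.card O = 1 := by
    intro o ho
    have h := pow_card_eq_one' (G := O) (x := ⟨o, ho⟩)
    have h' : ((⟨o, ho⟩ : O) ^ Nat.card O : O).1 = ((1 : O) : G) := congrArg Subtype.val h
    rw [Subgroup.coe_pow, Subgroup.coe_one] at h'
    exact h'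
  -- `O ⊓ S = 1`
  have hOS : ∀ o ∈ O, o ∈ (S : Subgroup G) → o = 1 := by
    intro o ho hoS
    obtain ⟨k, hk⟩ := orderOf_dvd_two_pow S hoS
    have h2 : orderOf o ∣ Nat.card O := orderOf_dvd_of_pow_eq_one (hOpow o ho)
    have h3 : Odd (orderOf o) := Odd.of_dvd_nat hOodd h2
    exact orderOf_eq_one_iff.mp (odd_dvd_two_pow h3 hk)
  have hO2 : ∀ o ∈ O, o * o = 1 → o = 1 := by
    intro o ho ho2
    have h1 : orderOf o ∣ 2 ^ 1 := orderOf_dvd_of_pow_eq_one (by rw [pow_one, pow_two]; exact ho2)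
    have h2 : orderOf o ∣ Nat.card O := orderOf_dvd_of_pow_eq_one (hOpow o ho)
    have h3 : Odd (orderOf o) := Odd.of_dvd_nat hOodd h2
    exact orderOf_eq_one_iff.mp (odd_dvd_two_pow h3 h1)
  have hsO : s ∉ Subgroup.centralizer (O : Set G) := fun h => hsA ⟨hsS, h⟩
  have hinvO : ∀ y ∈ O, s * y * s⁻¹ = y⁻¹ := hb s hsS hsO
  have hs1 : s ≠ 1 := by
    intro h
    apply hsA
    rw [h]; exact Subgroup.one_mem _
  -- `O` is abelian
  have hOcomm : ∀ y ∈ O, ∀ z ∈ O, y * z = z * y := by
    intro y hy z hz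
    have h1 := hinvO (y * z) (O.mul_mem hy hz)
    have h2 : s * (y * z) * s⁻¹ = (s * y * s⁻¹) * (s * z * s⁻¹) := by group
    rw [h2, hinvO y hy, hinvO z hz] at h1
    have h3 : (y⁻¹ * z⁻¹)⁻¹ = ((y * z)⁻¹)⁻¹ := congrArg (·⁻¹) h1
    rw [mul_inv_rev, inv_inv, inv_inv, inv_inv] at h3
    exact h3.symm
  have hAcomm : ∀ a ∈ (S : Subgroup G) ⊓ Subgroup.centralizer (O : Set G),
      ∀ b ∈ (S : Subgroup G) ⊓ Subgroup.centralizer (O : Set G), a * b = b * a := by
    intro a ha b hb
    have := mul_comm' (⟨a, ha⟩ : ↥((S : Subgroup G) ⊓ Subgroup.centralizer (O : Set G))) ⟨b, hb⟩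
    exact congrArg Subtype.val this
  have hOA : ∀ o ∈ O, ∀ a ∈ (S : Subgroup G) ⊓ Subgroup.centralizer (O : Set G),
      o * a = a * o := fun o ho a ha => Subgroup.mem_centralizer_iff.mp (hAO ha) o ho
  have hKcomm : ∀ x ∈ O ⊔ (S : Subgroup G) ⊓ Subgroup.centralizer (O : Set G),
      ∀ y ∈ O ⊔ (S : Subgroup G) ⊓ Subgroup.centralizer (O : Set G), x * y = y * x := by
    intro x hx y hy
    obtain ⟨o, ho, a, ha, rfl⟩ := hKMem G O _ hAO x hx
    obtain ⟨o', ho', a', ha', rfl⟩ := hKMem G O _ hAO y hy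
    calc o * a * (o' * a') = o * (a * o') * a' := by group
      _ = o * (o' * a) * a' := by rw [hOA o' ho' a ha]
      _ = (o * o') * (a * a') := by group
      _ = (o' * o) * (a' * a) := by rw [hOcomm o ho o' ho', hAcomm a ha a' ha']
      _ = o' * (o * a') * a := by group
      _ = o' * (a' * o) * a := by rw [hOA o ho a' ha']
      _ = o' * a' * (o * a) := by group
  have hKC : O ⊔ (S : Subgroup G) ⊓ Subgroup.centralizer (O : Set G) ≤
      Subgroup.centralizer ({t} : Set G) := sup_le hOC (hAS.trans hSC)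
  have htK : t ∈ O ⊔ (S : Subgroup G) ⊓ Subgroup.centralizer (O : Set G) :=
    Subgroup.mem_sup_right htA
  -- `s` inverts `K`
  have hinvK : ∀ x ∈ O ⊔ (S : Subgroup G) ⊓ Subgroup.centralizer (O : Set G),
      s * x * s⁻¹ = x⁻¹ := by
    intro x hx
    obtain ⟨o, ho, a, ha, rfl⟩ := hKMem G O _ hAO x hx
    have h2 : s * (o * a) * s⁻¹ = (s * o * s⁻¹) * (s * a * s⁻¹) := by group
    rw [h2, hinvO o ho, hsinvA a ha, hOA o ho a ha, mul_inv_rev]
  refine ⟨⟨⟨fun x y => Subtype.ext (hKcomm x x.2 y y.2)⟩⟩, hKC, htK, ?_, hSC hsS, ?_, ?_, ?_, hinvK⟩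
  · exact orderOf_eq_prime (by rw [pow_two]; exact hs2) hs1
  · -- `s ∉ K`
    intro h
    obtain ⟨o, ho, a, ha, hsoa⟩ := hKMem G O _ hAO s h
    have ho1 : o = 1 := by
      apply hOS o ho
      have : o = s * a⁻¹ := by rw [hsoa]; group
      rw [this]
      exact Subgroup.mul_mem _ hsS (Subgroup.inv_mem _ (hAS ha))
    apply hsA
    rw [hsoa, ho1, one_mul]; exact ha
  · -- `K ⊔ ⟨s⟩ = C(t)`
    apply le_antisymm
    · exact sup_le hKC ((Subgroup.zpowers_le).mpr (hSC hsS))
    · intro c hc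
      obtain ⟨o, ho, s₁, hs₁, rfl⟩ := hfact c hc
      apply Subgroup.mul_mem
      · exact Subgroup.mem_sup_left (Subgroup.mem_sup_left ho)
      · by_cases h1 : s₁ ∈ (S : Subgroup G) ⊓ Subgroup.centralizer (O : Set G)
        · exact Subgroup.mem_sup_left (Subgroup.mem_sup_right h1)
        · have hidx' : (((S : Subgroup G) ⊓ Subgroup.centralizer (O : Set G)).subgroupOf
              (S : Subgroup G)).index = 2 := hidx
          have key := Subgroup.mul_mem_iff_of_index_two hidx'
            (a := (⟨s⁻¹, Subgroup.inv_mem _ hsS⟩ : (S : Subgroup G))) (b := ⟨s₁, hs₁⟩)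
          have ha' : (⟨s⁻¹, Subgroup.inv_mem _ hsS⟩ : (S : Subgroup G)) ∉
              ((S : Subgroup G) ⊓ Subgroup.centralizer (O : Set G)).subgroupOf
                (S : Subgroup G) := by
            intro h
            apply hsA
            have h' : s⁻¹ ∈ (S : Subgroup G) ⊓ Subgroup.centralizer (O : Set G) :=
              Subgroup.mem_subgroupOf.mp h
            have := Subgroup.inv_mem _ h'
            rwa [inv_inv] at this
          have hb' : (⟨s₁, hs₁⟩ : (S : Subgroup G)) ∉
              ((S : Subgroup G) ⊓ Subgroup.centralizer (O : Set G)).subgroupOf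
                (S : Subgroup G) := fun h => h1 (Subgroup.mem_subgroupOf.mp h)
          have hprod := key.mpr ⟨fun h => absurd h ha', fun h => absurd h hb'⟩
          have hprod' : s⁻¹ * s₁ ∈ (S : Subgroup G) ⊓ Subgroup.centralizer (O : Set G) :=
            Subgroup.mem_subgroupOf.mp hprod
          have : s₁ = s * (s⁻¹ * s₁) := by group
          rw [this]
          exact Subgroup.mul_mem _ (Subgroup.mem_sup_right (Subgroup.mem_zpowers s))
            (Subgroup.mem_sup_left (Subgroup.mem_sup_right hprod'))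
  · -- `K ⊓ C(s) = ⟨t⟩`
    apply le_antisymm
    · intro x hx
      obtain ⟨hxK, hxs⟩ := Subgroup.mem_inf.mp hx
      have hcomm : s * x = x * s := Subgroup.mem_centralizer_iff.mp hxs s rfl
      have h1 := hinvK x hxK
      rw [hcomm, mul_inv_cancel_right] at h1
      have hx2 : x * x = 1 := by
        calc x * x = x * x⁻¹ := by rw [← h1]
          _ = 1 := mul_inv_cancel x
      obtain ⟨o, ho, a, ha, rfl⟩ := hKMem G O _ hAO x hxK
      have h3 : o * a * (o * a) = (o * o) * (a * a) := by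
        calc o * a * (o * a) = o * (a * o) * a := by group
          _ = o * (o * a) * a := by rw [hOA o ho a ha]
          _ = (o * o) * (a * a) := by group
      rw [h3] at hx2
      have hoo : o * o = (a * a)⁻¹ := eq_inv_of_mul_eq_one_left hx2
      have hoo1 : o * o = 1 := by
        apply hOS (o * o) (O.mul_mem ho ho)
        rw [hoo]
        exact Subgroup.inv_mem _ (Subgroup.mul_mem _ (hAS ha) (hAS ha))
      have ho1 : o = 1 := hO2 o ho hoo1
      rw [hoo1, one_mul] at hx2
      rw [ho1, one_mul]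
      rcases uniq_inv _ hAcyc htA ht ha hx2 with h | h
      · rw [h]; exact Subgroup.one_mem _
      · rw [h]; exact Subgroup.mem_zpowers t
    · rw [Subgroup.zpowers_le]
      refine Subgroup.mem_inf.mpr ⟨htK, ?_⟩
      rw [Subgroup.mem_centralizer_iff]
      intro h hh
      rw [Set.mem_singleton_iff] at hh
      subst hh
      exact htcent h hsS

end Cfsg.Agent.Lib.Helper65.DSODATA1
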