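import Mathlib
import Cfsg.Agent.Lib.Helper28.DxStmt

/-!
# S1615 piece COUNT: the counting identity `μ (v - 1 - k) = k (k - 1)`

Fix `a` in `D` and count the pairs `(u, b)` with `u` a commuting partner of `a`, `b` a member of
`D` not commuting with `a`, and `u`, `b` commuting.
-/

set_option autoImplicit false

namespace Cfsg.Agent.Lib.Helper65.DxCOUNT

open Cfsg Cfsg.Agent.Lib.Helper21.W3Class Cfsg.Agent.Lib.Helper28
  Cfsg.Agent.Lib.Helper28.DxStmt

universe u

theorem main : Count.{u} := by
  intro G _ _ D T htf k μ hk hμ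
  classical
  cases nonempty_fintype G
  obtain ⟨a, ha, -⟩ := T.w
  have key : ∀ S : Set G, S.ncard = (Finset.univ.filter (fun y => y ∈ S)).card := by
    intro S
    rw [← Set.ncard_coe_finset]
    congr 1
    ext y
    simp
  obtain ⟨P, hP⟩ : ∃ P : Finset G, P = Finset.univ.filter (fun y => y ∈ Pt D a) := ⟨_, rfl⟩
  obtain ⟨N, hN⟩ : ∃ N : Finset G, N = Finset.univ.filter (fun b => b ∈ D ∧ ¬ Commute a b) :=
    ⟨_, rfl⟩
  have hPmem : ∀ y, y ∈ P ↔ y ∈ D ∧ y ≠ a ∧ Commute a y := by
    intro y
    rw [hP, Finset.mem_filter]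
    exact ⟨fun h => h.2, fun h => ⟨Finset.mem_univ _, h⟩⟩
  have hNmem : ∀ y, y ∈ N ↔ y ∈ D ∧ ¬ Commute a y := by
    intro y
    rw [hN, Finset.mem_filter]
    exact ⟨fun h => h.2, fun h => ⟨Finset.mem_univ _, h⟩⟩
  have hPk : P.card = k := by
    rw [hP, ← key]
    exact hk a ha
  -- the partition of `D`
  have h1 : D.ncard = 1 + k + N.card := by
    rw [key, ← hPk]
    have hpart : Finset.univ.filter (fun y => y ∈ D) = insert a P ∪ N := by
      ext y
      rw [Finset.mem_filter, Finset.mem_union, Finset.mem_insert, hPmem, hNmem]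
      constructor
      · rintro ⟨-, hy⟩
        by_cases hc : Commute a y
        · by_cases hya : y = a
          · exact Or.inl (Or.inl hya)
          · exact Or.inl (Or.inr ⟨hy, hya, hc⟩)
        · exact Or.inr ⟨hy, hc⟩
      · rintro ((rfl | h) | h)
        · exact ⟨Finset.mem_univ _, ha⟩
        · exact ⟨Finset.mem_univ _, h.1⟩
        · exact ⟨Finset.mem_univ _, h.1⟩
    have haP : a ∉ P := by
      rw [hPmem]
      exact fun h => h.2.1 rfl
    have hdisj : Disjoint (insert a P) N := by
      rw [Finset.disjoint_left]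
      intro y hy hyN
      rw [hNmem] at hyN
      rw [Finset.mem_insert, hPmem] at hy
      rcases hy with rfl | hy
      · exact hyN.2 (Commute.refl _)
      · exact hyN.2 hy.2.2
    rw [hpart, Finset.card_union_of_disjoint hdisj, Finset.card_insert_of_notMem haP]
    ring
  -- the partners of `u` not commuting with `a`
  have h2 : ∀ u ∈ P, (N.filter (fun b => Commute u b)).card + 1 = k := by
    intro u hu
    obtain ⟨huD, hua, hau⟩ := (hPmem u).mp hu
    have haPu : a ∈ Pt D u := ⟨ha, fun h => hua h.symm, hau.symm⟩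
    have haN : a ∉ N.filter (fun b => Commute u b) := by
      rw [Finset.mem_filter, hNmem]
      exact fun h => h.1.2 (Commute.refl _)
    rw [← hk u huD, key, ← Finset.card_insert_of_notMem haN]
    congr 1
    ext y
    rw [Finset.mem_insert, Finset.mem_filter, Finset.mem_filter, hNmem]
    constructor
    · rintro (rfl | ⟨⟨hyD, hay⟩, huy⟩)
      · exact ⟨Finset.mem_univ _, haPu⟩
      · refine ⟨Finset.mem_univ _, hyD, ?_, huy⟩
        rintro rfl
        exact hay hau
    · rintro ⟨-, hyD, hyu, huy⟩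
      by_cases hya : y = a
      · exact Or.inl hya
      · exact Or.inr ⟨⟨hyD, htf u huD a haPu y ⟨hyD, hyu, huy⟩ (fun h => hya h.symm)⟩, huy⟩
  -- the common partners
  have h3 : ∀ b ∈ N, (P.filter (fun u => Commute u b)).card = μ := by
    intro b hb
    obtain ⟨hbD, hab⟩ := (hNmem b).mp hb
    rw [← hμ a ha b hbD hab, key]
    congr 1
    ext y
    rw [Finset.mem_filter, Finset.mem_filter, hPmem]
    constructor
    · rintro ⟨⟨hyD, hya, hay⟩, hyb⟩
      exact ⟨Finset.mem_univ _, hyD, hay, hyb.symm⟩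
    · rintro ⟨-, hyD, hay, hby⟩
      refine ⟨⟨hyD, ?_, hay⟩, hby.symm⟩
      rintro rfl
      exact hab hby.symm
  have hdc := Finset.sum_card_bipartiteAbove_eq_sum_card_bipartiteBelow (s := P) (t := N)
    (fun u b => Commute u b)
  simp only [Finset.bipartiteAbove, Finset.bipartiteBelow] at hdc
  rw [Finset.sum_congr rfl h3, Finset.sum_const, smul_eq_mul] at hdc
  have h4 : ∑ u ∈ P, (N.filter (fun b => Commute u b)).card + k = k * k := by
    have h5 : ∑ u ∈ P, ((N.filter (fun b => Commute u b)).card + 1) = ∑ u ∈ P, k :=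
      Finset.sum_congr rfl h2
    rw [Finset.sum_add_distrib, Finset.sum_const, Finset.sum_const, smul_eq_mul, smul_eq_mul,
      hPk, mul_one] at h5
    exact h5
  rw [h1]
  nlinarith [hdc, h4]

end Cfsg.Agent.Lib.Helper65.DxCOUNT
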