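import Mathlib
import Cfsg.Agent.Lib.Helper28.DxStmt

/-!
# S1615 piece MUNEK: two non-commuting members do not have the same commuting partners

Otherwise `{a, b}` would be a module, hence all of `D`, but `D` contains two distinct commuting
members.
-/

set_option autoImplicit false

namespace Cfsg.Agent.Lib.Helper65.DxMUNEK

open Cfsg Cfsg.Agent.Lib.Helper21.W3Class Cfsg.Agent.Lib.Helper28
  Cfsg.Agent.Lib.Helper28.DxStmt

universe u

theorem main : MuNeK.{u} := by
  intro G _ _ D T a ha b hb hab h1 h2
  classical
  have hane : a ≠ b := by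
    rintro rfl
    exact hab (Commute.refl _)
  have hsubA : Mu D a b ⊆ Pt D a := by
    rintro u ⟨huD, hau, hbu⟩
    refine ⟨huD, ?_, hau⟩
    rintro rfl
    exact hab hbu.symm
  have hsubB : Mu D a b ⊆ Pt D b := by
    rintro u ⟨huD, hau, hbu⟩
    refine ⟨huD, ?_, hbu⟩
    rintro rfl
    exact hab hau
  have hA : Mu D a b = Pt D a :=
    Set.eq_of_subset_of_ncard_le hsubA (le_of_eq h1.symm) (Set.toFinite _)
  have hB : Mu D a b = Pt D b :=
    Set.eq_of_subset_of_ncard_le hsubB (le_of_eq h2.symm) (Set.toFinite _)
  have hAB : Pt D a = Pt D b := hA.symm.trans hB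
  have hmod : ({a, b} : Set G) = D := by
    apply T.nomod
    · intro x hx
      rcases hx with rfl | rfl
      · exact ha
      · exact hb
    · intro x hxD hxB
      have hxa : x ≠ a := fun h => hxB (Or.inl h)
      have hxb : x ≠ b := fun h => hxB (Or.inr h)
      by_cases hc : Commute a x
      · left
        have hxA : x ∈ Pt D a := ⟨hxD, hxa, hc⟩
        have hxB' : x ∈ Pt D b := hAB ▸ hxA
        intro y hy
        rcases hy with rfl | rfl
        · exact hc.symm.eq
        · exact hxB'.2.2.symm.eq
      · right
        have hc' : ¬ Commute b x := by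
          intro hbx
          have hxB' : x ∈ Pt D b := ⟨hxD, hxb, hbx⟩
          have hxA : x ∈ Pt D a := hAB ▸ hxB'
          exact hc hxA.2.2
        intro y hy
        rcases hy with rfl | rfl
        · exact fun h => hc (Commute.symm h)
        · exact fun h => hc' (Commute.symm h)
    · exact ⟨a, Or.inl rfl, b, Or.inr rfl, hane⟩
  obtain ⟨a', ha', b', hb', hne', hcomm⟩ := T.w
  rw [← hmod] at ha' hb'
  rcases ha' with rfl | rfl <;> rcases hb' with rfl | rfl
  · exact hne' rfl
  · exact hab hcomm
  · exact hab hcomm.symm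
  · exact hne' rfl

end Cfsg.Agent.Lib.Helper65.DxMUNEK
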