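import Mathlib
import Cfsg.Agent.Lib.Helper37.EluStmt

/-! S5958, piece ORBCOUNT: if `φ` (`φ ^ r = 1`, no non-trivial `r`-th roots of unity in `F`)
permutes `t` independent lines then `t ≤ r * dim ker (φ - 1)`. -/

set_option autoImplicit false

namespace Cfsg.Agent.Lib.Helper65.EluORBCOUNT

open Cfsg.Agent.Lib.Helper37.EluStmt

universe u

theorem main : PermDich.{u} → OrbCount.{u} := by
  classical
  intro hPD F _ V _ _ _ φ r hr hrF hroot hφ t D σ hD hfin hmap
  have hrpos : 0 < r := hr.pos
  have hDne : ∀ j, D j ≠ ⊥ := by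
    intro j h
    have h1 := hfin j
    rw [h, finrank_bot] at h1
    exact zero_ne_one h1
  -- non-zero vectors of the lines
  have hex : ∀ j, ∃ d : V, d ∈ D j ∧ d ≠ 0 := fun j => (Submodule.ne_bot_iff _).mp (hDne j)
  choose d hdD hd0 using hex
  have hli : LinearIndependent F d := hD.linearIndependent D hdD hd0
  have hmul : ∀ j, ∀ v ∈ D j, ∃ c : F, v = c • d j := by
    intro j v hv
    have hne : (⟨d j, hdD j⟩ : D j) ≠ 0 := fun h => hd0 j (congrArg Subtype.val h)
    obtain ⟨c, hc⟩ := (finrank_eq_one_iff_of_nonzero' (⟨d j, hdD j⟩ : D j) hne).mp (hfin j) ⟨v, hv⟩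
    exact ⟨c, (congrArg Subtype.val hc).symm⟩
  have hpow : ∀ (i : ℕ) (j : Fin t), ∃ c : F, (φ ^ i) (d j) = c • d ((σ ^ i) j) := by
    intro i j
    apply hmul
    rw [← map_pow_eq φ D σ hmap i j]
    exact Submodule.mem_map_of_mem (hdD j)
  -- `σ ^ r = 1`
  have hσr : σ ^ r = 1 := by
    apply Equiv.ext
    intro j
    have h1 := map_pow_eq φ D σ hmap r j
    rw [hφ] at h1
    have h2 : (D j).map (1 : Module.End F V) = D j := Submodule.map_id _
    rw [h2] at h1
    exact (hD.injective hDne h1).symm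
  -- coordinates with respect to `d`
  obtain ⟨ρ, hρ⟩ := LinearMap.exists_leftInverse_of_injective (Finsupp.linearCombination F d)
    (linearIndependent_iff_ker.mp hli)
  have hρd : ∀ j, ρ (d j) = Finsupp.single j 1 := by
    intro j
    have h1 := congrArg (fun g : (Fin t →₀ F) →ₗ[F] (Fin t →₀ F) => g (Finsupp.single j 1)) hρ
    simpa [Finsupp.linearCombination_single] using h1
  have hco : ∀ (k m : Fin t) (c : F), (ρ (c • d m)) k = if m = k then c else 0 := by
    intro k m c
    rw [map_smul, hρd, Finsupp.smul_apply, Finsupp.single_apply, smul_eq_mul]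
    split_ifs <;> simp
  have hA : ∀ (i : ℕ) (j k : Fin t), (σ ^ i) j ≠ k → (ρ ((φ ^ i) (d j))) k = 0 := by
    intro i j k hne
    obtain ⟨c, hc⟩ := hpow i j
    rw [hc, hco, if_neg hne]
  -- the fixed vectors
  have hsum : ∀ (j k : Fin t), (ρ (∑ i ∈ Finset.range r, (φ ^ i) (d j))) k =
      ∑ i ∈ Finset.range r, (ρ ((φ ^ i) (d j))) k := by
    intro j k
    rw [map_sum, Finsupp.finsetSum_apply]
  have hB : ∀ k : Fin t, (ρ (∑ i ∈ Finset.range r, (φ ^ i) (d k))) k ≠ 0 := by
    intro k
    rcases hPD F V φ r hr hφ t D σ hD hDne hmap k with hfix | hinj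
    · obtain ⟨lam, hlam⟩ := hpow 1 k
      rw [pow_one, pow_one, hfix] at hlam
      have hpl : ∀ i : ℕ, (φ ^ i) (d k) = lam ^ i • d k := by
        intro i
        induction i with
        | zero => simp
        | succ i ih =>
          rw [pow_succ]
          show (φ ^ i) (φ (d k)) = _
          rw [hlam, map_smul, ih, smul_smul, pow_succ, mul_comm]
      have h1 : lam ^ r = 1 := by
        have h2 := hpl r
        rw [hφ] at h2
        have h3 : (lam ^ r - 1) • d k = 0 := by
          rw [sub_smul, one_smul, ← h2]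
          exact sub_self _
        rcases smul_eq_zero.mp h3 with h4 | h4
        · exact sub_eq_zero.mp h4
        · exact absurd h4 (hd0 k)
      have hl1 := hroot lam h1
      have h5 : ∑ i ∈ Finset.range r, (φ ^ i) (d k) = (r : F) • d k := by
        rw [Finset.sum_congr rfl (fun i _ => hpl i)]
        simp [hl1, Nat.cast_smul_eq_nsmul]
      rw [h5, hco, if_pos rfl]
      exact hrF
    · rw [hsum, Finset.sum_eq_single 0]
      · rw [pow_zero]
        show (ρ (d k)) k ≠ 0
        rw [hρd, Finsupp.single_eq_same]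
        exact one_ne_zero
      · intro i hi hi0
        apply hA
        intro h
        have h1 : (⟨i, Finset.mem_range.mp hi⟩ : Fin r) = ⟨0, hrpos⟩ := by
          apply hinj
          show (σ ^ i) k = (σ ^ 0) k
          rw [h, pow_zero]
          rfl
        exact hi0 (congrArg Fin.val h1)
      · intro h
        exact absurd (Finset.mem_range.mpr hrpos) h
  have hC : ∀ j k : Fin t, (∀ i < r, (σ ^ i) j ≠ k) →
      (ρ (∑ i ∈ Finset.range r, (φ ^ i) (d j))) k = 0 := by
    intro j k h
    rw [hsum]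
    exact Finset.sum_eq_zero fun i hi => hA i j k (h i (Finset.mem_range.mp hi))
  -- orbit minima
  have hDm : ∀ j k : Fin t, (∀ i < r, j ≤ (σ ^ i) j) → (∀ i < r, k ≤ (σ ^ i) k) →
      ∀ i < r, (σ ^ i) j = k → j = k := by
    intro j k hj hk i hi hjk
    apply le_antisymm
    · rw [← hjk]; exact hj i hi
    · by_cases hi0 : i = 0
      · rw [hi0, pow_zero] at hjk
        exact le_of_eq hjk.symm
      · have h1 : (σ ^ (r - i)) k = j := by
          rw [← hjk, ← Equiv.Perm.mul_apply, ← pow_add, Nat.sub_add_cancel hi.le, hσr]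
          rfl
        have h2 := hk (r - i) (by omega)
        rw [h1] at h2
        exact h2
  -- the vectors `f j` for the orbit minima `j` are linearly independent
  have hliS : LinearIndependent F
      (fun j : {j : Fin t // ∀ i < r, j ≤ (σ ^ i) j} =>
        ∑ i ∈ Finset.range r, (φ ^ i) (d j.1)) := by
    rw [Fintype.linearIndependent_iff]
    intro g hg k
    have h1 := congrArg (fun v => (ρ v) k.1) hg
    simp only [map_sum, map_smul, Finsupp.finsetSum_apply, Finsupp.smul_apply, smul_eq_mul,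
      map_zero, Finsupp.zero_apply] at h1
    rw [Finset.sum_eq_single k] at h1
    · have h2 := hB k.1
      rw [map_sum, Finsupp.finsetSum_apply] at h2
      exact (mul_eq_zero.mp h1).resolve_right h2
    · intro j _ hjk
      have h2 := hC j.1 k.1 (fun i hi h => hjk (Subtype.ext (hDm j.1 k.1 j.2 k.2 i hi h)))
      rw [map_sum, Finsupp.finsetSum_apply] at h2
      rw [h2, mul_zero]
    · intro h
      exact absurd (Finset.mem_univ k) h
  -- they are fixed by `φ`
  have hfixed : ∀ j : Fin t, ∑ i ∈ Finset.range r, (φ ^ i) (d j) ∈ LinearMap.ker (φ - 1) := by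
    intro j
    rw [LinearMap.mem_ker, LinearMap.sub_apply, map_sum]
    have h1 : ∑ i ∈ Finset.range r, φ ((φ ^ i) (d j)) =
        ∑ i ∈ Finset.range r, (φ ^ (i + 1)) (d j) := by
      refine Finset.sum_congr rfl fun i _ => ?_
      rw [pow_succ']
      rfl
    have h2 := Finset.sum_range_succ (fun i => (φ ^ i) (d j)) r
    have h3 := Finset.sum_range_succ' (fun i => (φ ^ i) (d j)) r
    rw [h2] at h3
    simp only [hφ, pow_zero] at h3
    rw [h1]
    have h4 : ∑ i ∈ Finset.range r, (φ ^ (i + 1)) (d j) =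
        ∑ i ∈ Finset.range r, (φ ^ i) (d j) := by
      have h5 := add_right_cancel h3
      exact h5.symm
    rw [h4]
    show ∑ i ∈ Finset.range r, (φ ^ i) (d j) - ∑ i ∈ Finset.range r, (φ ^ i) (d j) = 0
    exact sub_self _
  have hliK : LinearIndependent F
      (fun j : {j : Fin t // ∀ i < r, j ≤ (σ ^ i) j} =>
        (⟨∑ i ∈ Finset.range r, (φ ^ i) (d j.1), hfixed j.1⟩ : LinearMap.ker (φ - 1))) := by
    apply LinearIndependent.of_comp (LinearMap.ker (φ - 1)).subtype
    exact hliS
  have hcardS := hliK.fintype_card_le_finrank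
  -- counting the orbits
  have hexm : ∀ k : Fin t, ∃ (m : {j : Fin t // ∀ i < r, j ≤ (σ ^ i) j}) (i : Fin r),
      (σ ^ (i : ℕ)) k = m.1 := by
    intro k
    have hne : Nonempty (Fin r) := ⟨⟨0, hrpos⟩⟩
    obtain ⟨i0, -, hi0⟩ := Finset.exists_min_image (Finset.univ : Finset (Fin r))
      (fun i : Fin r => (σ ^ (i : ℕ)) k) Finset.univ_nonempty
    refine ⟨⟨(σ ^ (i0 : ℕ)) k, ?_⟩, i0, rfl⟩
    intro i hi
    have e : (σ ^ i) ((σ ^ (i0 : ℕ)) k) = (σ ^ ((i + i0) % r)) k := by
      rw [← Equiv.Perm.mul_apply, ← pow_add, pow_eq_pow_mod (i + i0) hσr]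
    rw [e]
    exact hi0 ⟨(i + i0) % r, Nat.mod_lt _ hrpos⟩ (Finset.mem_univ _)
  choose m e hme using hexm
  have hinj : Function.Injective (fun k : Fin t => (m k, e k)) := by
    intro k k' h
    have h1 : m k = m k' := congrArg Prod.fst h
    have h2 : e k = e k' := congrArg Prod.snd h
    have h3 := hme k
    have h4 := hme k'
    rw [h2, h1, ← h4] at h3
    exact (σ ^ ((e k' : Fin r) : ℕ)).injective h3
  have hcard := Fintype.card_le_of_injective _ hinj
  rw [Fintype.card_fin, Fintype.card_prod, Fintype.card_fin] at hcard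
  calc t ≤ Fintype.card {j : Fin t // ∀ i < r, j ≤ (σ ^ i) j} * r := hcard
    _ ≤ Module.finrank F (LinearMap.ker (φ - 1)) * r := Nat.mul_le_mul_right r hcardS
    _ = r * Module.finrank F (LinearMap.ker (φ - 1)) := Nat.mul_comm _ _

end Cfsg.Agent.Lib.Helper65.EluORBCOUNT
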