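import Mathlib
import Cfsg.Agent.Lib.Helper40.HPStmt
import Cfsg.Agent.Lib.Helper44.NegPairs
import Cfsg.Agent.Lib.Helper57.TPSQNEG1

/-!
# S5974 / NEGSQFIX1 (call by helper40; helper65, second seat)

`q ≡ 1 (mod 4)`, `x` an isometry of the standard plus form with `x * x = -1`.  With `ι² = -1` the
eigenspaces `E₊ = ker (x - ι)`, `E₋ = ker (x + ι)` are totally singular, `E₊ ⊕ E₋ = V`, both of
finrank `d`.  Take `U ≤ E₊` of finrank `h = m / 2`, `K = E₋ ⊓ U^⊥` (finrank `d - h`), `U'` a
complement of `K` in `E₋` (finrank `h`): `W = U ⊕ U'` is invariant, nondegenerate of finrank `m`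
and contains the totally singular `U`.
-/

set_option autoImplicit false

universe u

open scoped Matrix

namespace Cfsg.Agent.Lib.Helper65.HPNEGSQFIX1

open Cfsg.Agent.Lib.Helper40.HPStmt
open Cfsg.Agent.Lib.Helper94.OPStmt (P StabP)
open Cfsg.Agent.Lib.Helper44.NegPairs
open Cfsg.Agent.Lib.Helper57.TPSQNEG1 (eig mem_eig eig_ts exists_le_finrank)
open QuadraticMap

theorem main : NegSqFix1.{u} := by
  intro F _ _ hq d m hd hm2 hmev hmd x hx hx2
  classical
  obtain ⟨h, hh⟩ := hmev
  have hsq : IsSquare (-1 : F) := by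
    rw [FiniteField.isSquare_neg_one_iff]
    omega
  obtain ⟨ι, hι⟩ := hsq
  have hιι : ι * ι = -1 := hι.symm
  have h2 : (2 : F) ≠ 0 := by
    apply Ring.two_ne_zero
    intro h
    have := FiniteField.even_card_iff_char_two.mp h
    omega
  obtain ⟨M, hMdef⟩ : ∃ M : Matrix (P d) (P d) F, M = (x : Matrix (P d) (P d) F) := ⟨_, rfl⟩
  have hMM : M * M = -1 := by
    rw [hMdef]
    exact hx2
  have hMMv : ∀ v : P d → F, M *ᵥ (M *ᵥ v) = -v := by
    intro v
    rw [Matrix.mulVec_mulVec, hMM, Matrix.neg_mulVec, Matrix.one_mulVec]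
  have hiso : ∀ v : P d → F,
      Cfsg.quadFormPlus d F (M *ᵥ v) = Cfsg.quadFormPlus d F v := by
    intro v
    rw [hMdef]
    exact hx v v
  -- the polar form as a bilinear form
  obtain ⟨B, hBdef⟩ : ∃ B : LinearMap.BilinForm F (P d → F), B = polarBilin (plusQ d F) :=
    ⟨_, rfl⟩
  have hB : ∀ u v : P d → F, B u v = polar (Cfsg.quadFormPlus d F) u v := by
    intro u v
    rw [hBdef]
    rfl
  have hBsymm : ∀ u v : P d → F, B u v = B v u := by
    intro u v
    rw [hB, hB, polar_comm]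
  have hsep : ∀ w : P d → F, (∀ y, B w y = 0) → w = 0 := by
    intro w hw
    apply sep_plusQ (F := F) d w
    intro y
    have h1 := hw y
    rw [hB] at h1
    exact h1
  have hBnd : B.Nondegenerate := by
    refine ⟨?_, ?_⟩
    · intro a ha
      exact hsep a ha
    · intro a ha
      exact hsep a (fun y => by rw [hBsymm]; exact ha y)
  have ts_B : ∀ U : Submodule F (P d → F), (∀ w ∈ U, Cfsg.quadFormPlus d F w = 0) →
      ∀ u ∈ U, ∀ v ∈ U, B u v = 0 := by
    intro U hU u hu v hv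
    rw [hB]
    unfold polar
    rw [hU _ (U.add_mem hu hv), hU _ hu, hU _ hv]
    ring
  have htop : Module.finrank F (P d → F) = 2 * d := by
    rw [Module.finrank_fintype_fun_eq_card, Fintype.card_sum, Fintype.card_fin]
    ring
  have hhalf : ∀ U : Submodule F (P d → F), (∀ w ∈ U, Cfsg.quadFormPlus d F w = 0) →
      Module.finrank F ↥U ≤ d := by
    intro U hU
    have hle : U ≤ B.orthogonal U := by
      intro u hu v hv
      show B v u = 0
      exact ts_B U hU v hv u hu
    have h1 := LinearMap.BilinForm.finrank_orthogonal hBnd U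
    have h3 := Submodule.finrank_mono hle
    rw [h1, htop] at h3
    omega
  -- the eigenspaces
  obtain ⟨Ep, hEp⟩ : ∃ Ep : Submodule F (P d → F), Ep = eig M ι := ⟨_, rfl⟩
  obtain ⟨Em, hEm⟩ : ∃ Em : Submodule F (P d → F), Em = eig M (-ι) := ⟨_, rfl⟩
  have hts1 : ∀ w ∈ Ep, Cfsg.quadFormPlus d F w = 0 := by
    rw [hEp]
    exact eig_ts h2 M hiso ι hιι
  have hts2 : ∀ w ∈ Em, Cfsg.quadFormPlus d F w = 0 := by
    rw [hEm]
    exact eig_ts h2 M hiso (-ι) (by rw [neg_mul_neg, hιι])
  have hEpx : ∀ w ∈ Ep, M *ᵥ w = ι • w := by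
    intro w hw
    rw [hEp] at hw
    exact (mem_eig M ι w).mp hw
  have hEmx : ∀ w ∈ Em, M *ᵥ w = (-ι) • w := by
    intro w hw
    rw [hEm] at hw
    exact (mem_eig M (-ι) w).mp hw
  have hsup : Ep ⊔ Em = ⊤ := by
    rw [hEp, hEm, eq_top_iff]
    intro v _
    have ha : (2 : F)⁻¹ • (v - ι • (M *ᵥ v)) ∈ eig M ι := by
      apply Submodule.smul_mem
      rw [mem_eig, Matrix.mulVec_sub, Matrix.mulVec_smul, hMMv, smul_sub, smul_smul, hιι]
      simp only [smul_neg, neg_smul, one_smul, sub_neg_eq_add]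
      rw [add_comm]
    have hb : (2 : F)⁻¹ • (v + ι • (M *ᵥ v)) ∈ eig M (-ι) := by
      apply Submodule.smul_mem
      rw [mem_eig, Matrix.mulVec_add, Matrix.mulVec_smul, hMMv, smul_add, smul_smul,
        neg_mul, hιι]
      simp only [smul_neg, neg_smul, one_smul, neg_neg]
      rw [add_comm]
    have hv : v = (2 : F)⁻¹ • (v - ι • (M *ᵥ v)) + (2 : F)⁻¹ • (v + ι • (M *ᵥ v)) := by
      rw [← smul_add]
      have : v - ι • (M *ᵥ v) + (v + ι • (M *ᵥ v)) = (2 : F) • v := by
        rw [two_smul]; abel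
      rw [this, smul_smul, inv_mul_cancel₀ h2, one_smul]
    rw [hv]
    exact Submodule.add_mem _ (Submodule.mem_sup_left ha) (Submodule.mem_sup_right hb)
  have hinf : Ep ⊓ Em = ⊥ := by
    rw [eq_bot_iff]
    intro v hv
    have h1 := hEpx v hv.1
    have h1' := hEmx v hv.2
    have h3 : (ι - (-ι)) • v = 0 := by
      rw [sub_smul, sub_eq_zero]
      exact h1.symm.trans h1'
    have hne : ι - (-ι) ≠ 0 := by
      intro h0
      have h4 : (2 : F) * ι = 0 := by linear_combination h0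
      rcases mul_eq_zero.mp h4 with h5 | h5
      · exact h2 h5
      · rw [h5, mul_zero] at hιι
        exact one_ne_zero (neg_eq_zero.mp hιι.symm)
    rcases smul_eq_zero.mp h3 with h6 | h6
    · exact absurd h6 hne
    · exact (Submodule.mem_bot F).mpr h6
  have hdimsum : Module.finrank F ↥Ep + Module.finrank F ↥Em = 2 * d := by
    have h1 := Submodule.finrank_sup_add_finrank_inf_eq Ep Em
    rw [hsup, hinf, finrank_top, finrank_bot, htop] at h1
    omega
  have hEpd : Module.finrank F ↥Ep = d := by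
    have h1 := hhalf Ep hts1
    have h1' := hhalf Em hts2
    omega
  have hEmd : Module.finrank F ↥Em = d := by
    have h1 := hhalf Ep hts1
    have h1' := hhalf Em hts2
    omega
  -- `U ≤ E₊` of finrank `h`
  have hhd : h ≤ Module.finrank F ↥Ep := by omega
  obtain ⟨U, hUE, hUh⟩ := exists_le_finrank hhd
  -- `K = E₋ ⊓ U^⊥`
  obtain ⟨K, hK⟩ : ∃ K : Submodule F (P d → F), K = Em ⊓ B.orthogonal U := ⟨_, rfl⟩
  have hKE : K ≤ Em := by
    rw [hK]
    exact inf_le_left
  have hKU : ∀ k ∈ K, ∀ u ∈ U, B u k = 0 := by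
    intro k hk u hu
    rw [hK] at hk
    exact hk.2 u hu
  have hEmU : Em ⊓ U = ⊥ := by
    rw [eq_bot_iff, ← hinf]
    exact le_inf (inf_le_right.trans hUE) inf_le_left
  have hKdim : Module.finrank F ↥K = d - h := by
    have h1 := Submodule.finrank_sup_add_finrank_inf_eq Em (B.orthogonal U)
    have h1' := LinearMap.BilinForm.finrank_orthogonal hBnd U
    have h3 : Module.finrank F ↥(Em ⊔ B.orthogonal U) ≤ 2 * d := by
      rw [← htop]
      exact Submodule.finrank_le _
    have h4 : Em ⊔ U ≤ B.orthogonal K := by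
      apply sup_le
      · intro v hv k hk
        show B k v = 0
        exact ts_B Em hts2 k (hKE hk) v hv
      · intro u hu k hk
        show B k u = 0
        rw [hBsymm]
        exact hKU k hk u hu
    have h5 := LinearMap.BilinForm.finrank_orthogonal hBnd K
    have h6 := Submodule.finrank_mono h4
    have h7 := Submodule.finrank_sup_add_finrank_inf_eq Em U
    rw [hEmU, finrank_bot] at h7
    rw [← hK, h1', htop] at h1
    rw [h5, htop] at h6
    omega
  -- `U'` a complement of `K` in `E₋`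
  obtain ⟨q, hq'⟩ := Submodule.exists_isCompl K
  obtain ⟨U', hU'⟩ : ∃ U' : Submodule F (P d → F), U' = q ⊓ Em := ⟨_, rfl⟩
  have hU'E : U' ≤ Em := by
    rw [hU']
    exact inf_le_right
  have hKU'inf : K ⊓ U' = ⊥ := by
    rw [eq_bot_iff, ← hq'.inf_eq_bot, hU']
    exact le_inf inf_le_left (inf_le_right.trans inf_le_left)
  have hKU'sup : K ⊔ U' = Em := by
    rw [hU', ← sup_inf_assoc_of_le q hKE, hq'.sup_eq_top, top_inf_eq]
  have hU'dim : Module.finrank F ↥U' = h := by
    have h1 := Submodule.finrank_sup_add_finrank_inf_eq K U'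
    rw [hKU'sup, hKU'inf, finrank_bot] at h1
    omega
  -- `W = U ⊕ U'`
  obtain ⟨W, hW⟩ : ∃ W : Submodule F (P d → F), W = U ⊔ U' := ⟨_, rfl⟩
  have hUW : U ≤ W := by
    rw [hW]
    exact le_sup_left
  have hU'W : U' ≤ W := by
    rw [hW]
    exact le_sup_right
  have hUU' : U ⊓ U' = ⊥ := by
    rw [eq_bot_iff, ← hinf]
    exact le_inf (inf_le_left.trans hUE) (inf_le_right.trans hU'E)
  have hWdim : Module.finrank F ↥W = m := by
    have h1 := Submodule.finrank_sup_add_finrank_inf_eq U U'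
    rw [hUU', finrank_bot, ← hW] at h1
    omega
  refine ⟨W, ⟨hWdim, ?_, U, hUW, by omega, fun u hu => hts1 u (hUE hu)⟩, ?_⟩
  · intro w hw hw0
    by_contra hcon
    have hall : ∀ v ∈ W, B w v = 0 := by
      intro v hv
      by_contra hne
      exact hcon ⟨v, hv, by rw [← hB]; exact hne⟩
    rw [hW] at hw
    obtain ⟨u, hu, u', hu', rfl⟩ := Submodule.mem_sup.mp hw
    have hu'K : u' ∈ K := by
      rw [hK]
      refine ⟨hU'E hu', ?_⟩
      intro u₁ hu₁
      show B u₁ u' = 0
      have h1 := hall u₁ (hUW hu₁)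
      rw [map_add, LinearMap.add_apply, ts_B Ep hts1 u (hUE hu) u₁ (hUE hu₁), zero_add] at h1
      rw [hBsymm]
      exact h1
    have hu'0 : u' = 0 := by
      have h1 : u' ∈ K ⊓ U' := ⟨hu'K, hu'⟩
      rw [hKU'inf] at h1
      exact (Submodule.mem_bot F).mp h1
    subst hu'0
    rw [add_zero] at hw0 hall
    apply hw0
    apply hsep
    intro y
    have hy : y ∈ Ep ⊔ Em := by
      rw [hsup]
      exact Submodule.mem_top
    obtain ⟨y1, hy1, y2, hy2, rfl⟩ := Submodule.mem_sup.mp hy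
    rw [← hKU'sup] at hy2
    obtain ⟨k, hk, u'', hu'', rfl⟩ := Submodule.mem_sup.mp hy2
    rw [map_add, map_add, ts_B Ep hts1 u (hUE hu) y1 hy1, hKU k hk u hu,
      hall u'' (hU'W hu''), add_zero, add_zero]
  · show W.map (Matrix.toLin' (x : Matrix (P d) (P d) F)) ≤ W
    intro y hy
    obtain ⟨w, hw, rfl⟩ := hy
    have hw' : w ∈ U ⊔ U' := by
      rw [← hW]
      exact hw
    obtain ⟨u, hu, u', hu', rfl⟩ := Submodule.mem_sup.mp hw'
    rw [Matrix.toLin'_apply, ← hMdef, Matrix.mulVec_add, hEpx u (hUE hu), hEmx u' (hU'E hu')]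
    exact W.add_mem (W.smul_mem _ (hUW hu)) (W.smul_mem _ (hU'W hu'))

end Cfsg.Agent.Lib.Helper65.HPNEGSQFIX1
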