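import Mathlib
import Cfsg.Agent.Lib.Helper3.M24BlkStmt

/-! S5006, piece DIG: reading a count off a sum of powers `2 ^ (20 * f U)` (base `2 ^ 20`
digits). -/

set_option autoImplicit false

namespace Cfsg.Agent.Lib.Helper65.M24DIG

open Cfsg.Agent.Lib.Helper3.M24BlkStmt

/-- Decomposition of the sum of the `B ^ f U` around the digit `j`. -/
theorem digit_aux (B : ℕ) (hB : 0 < B) (f : ℕ → ℕ) (j : ℕ) : ∀ l : List ℕ,
    ∃ low high : ℕ, (l.map (fun U => B ^ f U)).sum =
        low + B ^ j * l.countP (fun U => Nat.beq (f U) j) + B ^ j * B * high ∧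
      low * B ≤ l.length * B ^ j := by
  intro l
  induction l with
  | nil => exact ⟨0, 0, by simp, by simp⟩
  | cons U l ih =>
    obtain ⟨low, high, h1, h2⟩ := ih
    rcases lt_trichotomy (f U) j with h | h | h
    · refine ⟨low + B ^ f U, high, ?_, ?_⟩
      · have hb : ¬ (Nat.beq (f U) j = true) := fun hb => h.ne (Nat.eq_of_beq_eq_true hb)
        rw [List.map_cons, List.sum_cons, h1,
          List.countP_cons_of_neg (p := fun U => Nat.beq (f U) j) hb]
        ring
      · rw [List.length_cons]
        have h3 : B ^ f U * B ≤ B ^ j := by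
          rw [← pow_succ]
          exact Nat.pow_le_pow_right hB h
        nlinarith
    · refine ⟨low, high, ?_, ?_⟩
      · have hb : Nat.beq (f U) j = true := by
          rw [h]; exact Nat.beq_refl j
        rw [List.map_cons, List.sum_cons, h1,
          List.countP_cons_of_pos (p := fun U => Nat.beq (f U) j) hb, h]
        ring
      · rw [List.length_cons]
        nlinarith [Nat.zero_le (B ^ j)]
    · refine ⟨low, high + B ^ (f U - j - 1), ?_, ?_⟩
      · have hb : ¬ (Nat.beq (f U) j = true) := fun hb => h.ne' (Nat.eq_of_beq_eq_true hb)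
        have e : B ^ f U = B ^ j * B * B ^ (f U - j - 1) := by
          rw [← pow_succ, ← pow_add]
          congr 1
          omega
        rw [List.map_cons, List.sum_cons, h1,
          List.countP_cons_of_neg (p := fun U => Nat.beq (f U) j) hb, e]
        ring
      · rw [List.length_cons]
        nlinarith [Nat.zero_le (B ^ j)]

theorem digit_key (B : ℕ) (hB : 0 < B) (f : ℕ → ℕ) (l : List ℕ) (hlen : l.length < B) (j : ℕ) :
    ((l.map (fun U => B ^ f U)).sum / B ^ j) % B = l.countP (fun U => Nat.beq (f U) j) := by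
  obtain ⟨low, high, h1, h2⟩ := digit_aux B hB f j l
  have hpos : 0 < B ^ j := Nat.pow_pos hB
  have hlow : low < B ^ j := by
    by_contra hcon
    have hcon := not_lt.mp hcon
    have h3 : l.length * B ^ j < B * B ^ j := Nat.mul_lt_mul_of_pos_right hlen hpos
    have h4 : B ^ j * B ≤ low * B := Nat.mul_le_mul_right B hcon
    nlinarith
  have hcnt : l.countP (fun U => Nat.beq (f U) j) < B :=
    lt_of_le_of_lt List.countP_le_length hlen
  have e2 : low + B ^ j * l.countP (fun U => Nat.beq (f U) j) + B ^ j * B * high =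
      low + B ^ j * (l.countP (fun U => Nat.beq (f U) j) + B * high) := by ring
  rw [h1, e2, Nat.add_mul_div_left _ _ hpos, Nat.div_eq_of_lt hlow, zero_add,
    Nat.add_mul_mod_self_left, Nat.mod_eq_of_lt hcnt]

theorem main : DigitStmt := by
  intro f l hlen j
  have e1 : ∀ U, 2 ^ (20 * f U) = (2 ^ 20) ^ f U := fun U => pow_mul 2 20 (f U)
  have e3 : (2 : ℕ) ^ (20 * j) = (2 ^ 20) ^ j := pow_mul 2 20 j
  simp only [e1]
  rw [e3]
  exact digit_key (2 ^ 20) (by positivity) f l hlen j

end Cfsg.Agent.Lib.Helper65.M24DIG
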