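import Mathlib
import Cfsg.Agent.Lib.Helper3.M24BlkStmt

/-! S5006, piece TLY: the tally of the evaluator's answers over a list of packed tables is the
sum of the `2 ^ (20 * answer)`. -/

set_option autoImplicit false

namespace Cfsg.Agent.Lib.Helper65.M24TLY

open Cfsg.Agent.Lib.Helper3.M24Blk Cfsg.Agent.Lib.Helper3.M24BlkStmt

theorem main : TallyStmt := by
  intro S l
  induction l with
  | nil =>
    intro c
    show c = c + 0
    rfl
  | cons U l ih =>
    intro c
    have e : tally S (U :: l) c = tally S l (c + 1 <<< (20 * labE U S)) := rfl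
    rw [e, ih, List.map_cons, List.sum_cons, Nat.shiftLeft_eq, one_mul, Nat.add_assoc]

end Cfsg.Agent.Lib.Helper65.M24TLY
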