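import Mathlib
import Cfsg.Agent.Lib.Helper44.MFldStmt

set_option autoImplicit false

/-! Piece [GA] of S2737: semilinear basics for a general form `Q`:
`FieldAutEqQ`, `CsMulPhiQ`, `PowEqQ`, `InducedEq`, `SemiConj`. -/

namespace Cfsg.Agent.Lib.Helper65.MFldGA

open Matrix Module QuadraticMap
open Cfsg.Agent.Lib.Helper45.OmegaAut Cfsg.Agent.Lib.Helper43.H90Fin
open Cfsg.Agent.Lib.Helper44.MFld0 Cfsg.Agent.Lib.Helper44.MaxTS
  Cfsg.Agent.Lib.Helper44.NegPairs Cfsg.Agent.Lib.Helper44.QSpace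
  Cfsg.Agent.Lib.Helper44.QClass
open Cfsg.Agent.Lib.Helper45.SemiAut
open Cfsg.Agent.Lib.Helper44.MFldStmt

universe u

theorem fieldAutEqQ : FieldAutEqQ.{u} := by
  intro F _ ι _ _ Q σ h φ hφ
  apply MulEquiv.ext
  intro x
  induction x using QuotientGroup.induction_on with
  | H s =>
    show φ (QuotientGroup.mk s) = semiP 1 σ h.pair (QuotientGroup.mk s)
    rw [semiP_mk]
    apply hφ s (semiOm 1 σ h.pair s)
    rw [semiOm_coe, one_mul, inv_one, mul_one]
    rfl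

theorem csMulPhiQ : CsMulPhiQ.{u} := by
  intro F _ ι _ _ Q σ h g
  apply MulEquiv.ext
  intro x
  induction x using QuotientGroup.induction_on with
  | H s =>
    show semiP 1 σ h.pair (Phi Q g (QuotientGroup.mk s)) =
      Phi Q (mapGOq Q σ h g) (semiP 1 σ h.pair (QuotientGroup.mk s))
    rw [Phi_mk, semiP_mk, semiP_mk, Phi_mk]
    congr 1
    apply Subtype.ext
    apply Subtype.ext
    rw [semiOm_coe, cjΩ_coe, cjΩ_coe, semiOm_coe, map_mul, map_mul, map_inv, one_mul, inv_one,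
      mul_one, one_mul, mul_one]
    rfl

theorem powEqQ : PowEqQ.{u} := by
  intro F _ ι _ _ Q σ h g k
  induction k with
  | zero => rw [pow_zero, twq_zero, map_one, pow_zero, mul_one]
  | succ k ih =>
    have h3 : csq Q σ h * Phi Q (twq σ h g k) =
        Phi Q (mapGOq Q σ h (twq σ h g k)) * csq Q σ h := csMulPhiQ F ι Q σ h (twq σ h g k)
    rw [pow_succ', ih, twq_succ, map_mul, pow_succ']
    calc Phi Q g * csq Q σ h * (Phi Q (twq σ h g k) * csq Q σ h ^ k)
        = Phi Q g * (csq Q σ h * Phi Q (twq σ h g k)) * csq Q σ h ^ k := by group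
      _ = Phi Q g * Phi Q (mapGOq Q σ h (twq σ h g k)) * (csq Q σ h * csq Q σ h ^ k) := by
          rw [h3]; group

theorem inducedEq : InducedEq.{u} := by
  intro F _ ι _ _ Q g τ h β hβ
  apply MulEquiv.ext
  intro x
  induction x using QuotientGroup.induction_on with
  | H s =>
    rw [semiP_mk]
    apply hβ s (semiOm g τ h s)
    rw [semiOm_coe]
    rfl

theorem semi_mem_GOq {F : Type u} [Field F] {ι : Type} [Fintype ι] [DecidableEq ι]
    {Q : (ι → F) → F} {g : GL ι F} {τ : F ≃+* F} (h : Cfsg.IsSemisimilarityPair Q g τ)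
    {s : GL ι F} (hs : s ∈ Cfsg.Geo.quadSimilarityGroup (F := F) Q) :
    g * Matrix.GeneralLinearGroup.map (τ : F →+* F) s * g⁻¹ ∈
      Cfsg.Geo.quadSimilarityGroup (F := F) Q := by
  obtain ⟨c, hc⟩ := h
  obtain ⟨μ, hμ⟩ := hs
  refine ⟨Units.map ((τ : F →+* F) : F →* F) μ, fun v => ?_⟩
  obtain ⟨w, hw⟩ : ∃ w : ι → F, w = fun k => τ.symm ((((g⁻¹ : GL ι F) : Matrix ι ι F) *ᵥ v) k) :=
    ⟨_, rfl⟩
  have hv : v = (g : Matrix ι ι F) *ᵥ (fun k => τ (w k)) := by
    rw [hw]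
    simp only [RingEquiv.apply_symm_apply]
    rw [Matrix.mulVec_mulVec, ← Units.val_mul, mul_inv_cancel, Units.val_one, Matrix.one_mulVec]
  have e1 : ((g * Matrix.GeneralLinearGroup.map (τ : F →+* F) s * g⁻¹ : GL ι F) : Matrix ι ι F) *ᵥ v
      = (g : Matrix ι ι F) *ᵥ (fun k => τ (((s : Matrix ι ι F) *ᵥ w) k)) := by
    rw [← smap_mulVec]
    conv_lhs => rw [hv]
    rw [Units.val_mul, Units.val_mul, Matrix.mulVec_mulVec, Matrix.mulVec_mulVec]
    congr 1
    rw [Matrix.mul_assoc, Matrix.mul_assoc, ← Units.val_mul, inv_mul_cancel, Units.val_one,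
      Matrix.mul_one]
  have e : ((Units.map ((τ : F →+* F) : F →* F) μ : Fˣ) : F) = τ (μ : F) := rfl
  rw [e1, hc, hμ w, map_mul, e]
  conv_rhs => rw [hv, hc]
  ring

theorem semiConj : SemiConj.{u} := by
  intro F _ ι _ _ Q g τ h s
  refine ⟨⟨g * Matrix.GeneralLinearGroup.map (τ : F →+* F) (s : GL ι F) * g⁻¹,
    semi_mem_GOq h s.2⟩, rfl, ?_⟩
  rw [mul_inv_eq_iff_eq_mul]
  apply MulEquiv.ext
  intro x
  induction x using QuotientGroup.induction_on with
  | H t =>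
    show semiP g τ h (Phi Q s (QuotientGroup.mk t)) =
      Phi Q _ (semiP g τ h (QuotientGroup.mk t))
    rw [Phi_mk, semiP_mk, semiP_mk, Phi_mk]
    congr 1
    apply Subtype.ext
    apply Subtype.ext
    rw [semiOm_coe, cjΩ_coe, cjΩ_coe, semiOm_coe, map_mul, map_mul, map_inv]
    show g * (Matrix.GeneralLinearGroup.map (τ : F →+* F) (s : GL ι F) *
        Matrix.GeneralLinearGroup.map (τ : F →+* F) ((t : ↥(Cfsg.isometryGroup F Q)) : GL ι F) *
        (Matrix.GeneralLinearGroup.map (τ : F →+* F) (s : GL ι F))⁻¹) * g⁻¹ =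
      (g * Matrix.GeneralLinearGroup.map (τ : F →+* F) (s : GL ι F) * g⁻¹) *
        (g * Matrix.GeneralLinearGroup.map (τ : F →+* F)
          ((t : ↥(Cfsg.isometryGroup F Q)) : GL ι F) * g⁻¹) *
        (g * Matrix.GeneralLinearGroup.map (τ : F →+* F) (s : GL ι F) * g⁻¹)⁻¹
    group

end Cfsg.Agent.Lib.Helper65.MFldGA
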