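import Mathlib
import Cfsg.Agent.Lib.Helper94.OPStmt
import Cfsg.Agent.Lib.Helper14.OrthIndex
import Cfsg.Agent.Lib.Helper44.NegPairs

/-!
# S5989 / PELTA (call by helper94)

A Siegel element of `Omega^+_(2d)(q)`, `q` odd: `x = 1 + N` where `N` kills the `e`'s and sends
the `f`'s to `e`'s through a skew pairing on `ρ / 2` pairs of indices (adapted from
`Cfsg.Agent.Lib.Helper38.EllPELT`).
-/

set_option autoImplicit false

namespace Cfsg.Agent.Lib.Helper65.OPPELTA

open Matrix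

universe u

open Cfsg.Agent.Lib.Helper94.OPStmt

section nil

variable {F : Type u} [Field F] {d : ℕ}

/-- the nilpotent map -/
def Nf (σ : Fin d → Fin d) (ε : Fin d → F) (v : P d → F) : P d → F :=
  Sum.elim (fun b => ε (σ b) * v (Sum.inr (σ b))) (fun _ => 0)

theorem Nf_inl (σ : Fin d → Fin d) (ε : Fin d → F) (v : P d → F) (b : Fin d) :
    Nf σ ε v (Sum.inl b) = ε (σ b) * v (Sum.inr (σ b)) := rfl

theorem Nf_inr (σ : Fin d → Fin d) (ε : Fin d → F) (v : P d → F) (b : Fin d) :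
    Nf σ ε v (Sum.inr b) = 0 := rfl

/-- the nilpotent map, as a linear map -/
def Nl (σ : Fin d → Fin d) (ε : Fin d → F) : (P d → F) →ₗ[F] (P d → F) where
  toFun := Nf σ ε
  map_add' u v := by
    funext i
    rcases i with i | i
    · simp only [Nf_inl, Pi.add_apply, mul_add]
    · simp only [Nf_inr, Pi.add_apply, add_zero]
  map_smul' c v := by
    funext i
    rcases i with i | i
    · simp only [Nf_inl, Pi.smul_apply, smul_eq_mul, RingHom.id_apply]
      ring
    · simp only [Nf_inr, Pi.smul_apply, smul_eq_mul, RingHom.id_apply, mul_zero]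

/-- `1 + N` is an isometry -/
theorem Nf_iso (h2 : (2 : F) ≠ 0) (σ : Fin d → Fin d) (ε : Fin d → F)
    (hσ : ∀ a, σ (σ a) = a) (hε : ∀ a, ε (σ a) = -ε a) (v : P d → F) :
    Cfsg.quadFormPlus d F (v + Nf σ ε v) = Cfsg.quadFormPlus d F v := by
  have h1 : ∑ b, ε (σ b) * v (Sum.inr (σ b)) * v (Sum.inr b)
      = ∑ b, ε (σ (σ b)) * v (Sum.inr (σ (σ b))) * v (Sum.inr (σ b)) :=
    (Equiv.sum_comp (Function.Involutive.toPerm σ hσ)
      (fun b => ε (σ b) * v (Sum.inr (σ b)) * v (Sum.inr b))).symm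
  have h3 : ∑ b, ε (σ (σ b)) * v (Sum.inr (σ (σ b))) * v (Sum.inr (σ b))
      = -∑ b, ε (σ b) * v (Sum.inr (σ b)) * v (Sum.inr b) := by
    rw [← Finset.sum_neg_distrib]
    apply Finset.sum_congr rfl
    intro b _
    rw [hσ b, hε b]
    ring
  have h4 : (2 : F) * ∑ b, ε (σ b) * v (Sum.inr (σ b)) * v (Sum.inr b) = 0 := by
    linear_combination h1 + h3
  have hS : ∑ b, ε (σ b) * v (Sum.inr (σ b)) * v (Sum.inr b) = 0 :=
    (mul_eq_zero.mp h4).resolve_left h2
  have h5 : ∑ i, (v (Sum.inl i) + ε (σ i) * v (Sum.inr (σ i))) * v (Sum.inr i)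
      = ∑ i, v (Sum.inl i) * v (Sum.inr i)
        + ∑ b, ε (σ b) * v (Sum.inr (σ b)) * v (Sum.inr b) := by
    rw [← Finset.sum_add_distrib]
    apply Finset.sum_congr rfl
    intro i _
    ring
  unfold Cfsg.quadFormPlus
  simp only [Pi.add_apply, Nf_inl, Nf_inr, add_zero]
  rw [h5, hS, add_zero]

/-- `N ^ 2 = 0` -/
theorem Nf2 (σ : Fin d → Fin d) (ε : Fin d → F) (v : P d → F) :
    Nf σ ε (Nf σ ε v) = 0 := by
  funext i
  rcases i with i | i
  · simp [Nf_inl, Nf_inr]
  · rfl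

theorem Nf_pair [DecidableEq (Fin d)] (σ : Fin d → Fin d) (ε : Fin d → F)
    (hσ : ∀ a, σ (σ a) = a) (b : Fin d) (h2 : ε (σ b) * ε (σ b) = 1) :
    Nf σ ε (ε (σ b) • Pi.single (Sum.inr (σ b)) (1 : F))
      = Pi.single (Sum.inl b) 1 := by
  funext i
  rcases i with i | i
  · rw [Nf_inl]
    by_cases hb : i = b
    · subst hb
      simp [h2]
    · have hne : σ i ≠ σ b := fun h => hb (by rw [← hσ i, h, hσ])
      simp [hb, hne]
  · rw [Nf_inr]
    simp

end nil

theorem exists_data (F : Type u) [Field F] (d k : ℕ) (hk : 2 * k ≤ d) :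
    ∃ (σ : Fin d → Fin d) (ε : Fin d → F) (β : Fin k ⊕ Fin k → Fin d),
      (∀ a, σ (σ a) = a) ∧ (∀ a, ε (σ a) = -ε a) ∧ Function.Injective β ∧
      (∀ s, ε (σ (β s)) * ε (σ (β s)) = 1) ∧ ∀ b, (∃ s, β s = b) ∨ ε (σ b) = 0 := by
  classical
  have hcard : Fintype.card (Fin d)
      = Fintype.card ((Fin k ⊕ Fin k) ⊕ Fin (d - 2 * k)) := by
    simp only [Fintype.card_fin, Fintype.card_sum]
    omega
  have e : Fin d ≃ (Fin k ⊕ Fin k) ⊕ Fin (d - 2 * k) := Fintype.equivOfCardEq hcard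
  obtain ⟨f, hf⟩ : ∃ f : (Fin k ⊕ Fin k) ⊕ Fin (d - 2 * k)
      → (Fin k ⊕ Fin k) ⊕ Fin (d - 2 * k), f = Sum.map Sum.swap id := ⟨_, rfl⟩
  obtain ⟨g, hg⟩ : ∃ g : (Fin k ⊕ Fin k) ⊕ Fin (d - 2 * k) → F,
      g = Sum.elim (Sum.elim (fun _ => 1) (fun _ => -1)) (fun _ => 0) := ⟨_, rfl⟩
  have hff : ∀ x, f (f x) = x := by
    rw [hf]
    rintro ((x | x) | x) <;> rfl
  have hgf : ∀ x, g (f x) = -g x := by
    rw [hf, hg]
    rintro ((x | x) | x) <;> simp
  refine ⟨fun a => e.symm (f (e a)), fun a => g (e a), fun s => e.symm (Sum.inl s),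
    ?_, ?_, ?_, ?_, ?_⟩
  · intro a
    simp only [Equiv.apply_symm_apply, hff, Equiv.symm_apply_apply]
  · intro a
    simp only [Equiv.apply_symm_apply, hgf]
  · intro s t h
    simpa using h
  · intro s
    simp only [Equiv.apply_symm_apply]
    rw [hf, hg]
    rcases s with s | s <;> simp
  · intro b
    rcases hb : e b with x | x
    · left
      refine ⟨x, ?_⟩
      show e.symm (Sum.inl x) = b
      rw [← hb, Equiv.symm_apply_apply]
    · right
      simp only [Equiv.apply_symm_apply, hb]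
      rw [hf, hg]
      simp

theorem main : PEltA.{u} := by
  intro F _ _ p hpF _ hodd d ρ hρe hρ2 hρd
  classical
  have hp : p.Prime := hpF.out
  have h2 : (2 : F) ≠ 0 := by
    intro h
    have hch : ringChar F = 2 :=
      CharP.ringChar_of_prime_eq_zero Nat.prime_two (by exact_mod_cast h)
    have := FiniteField.even_card_of_char_two hch
    rcases hodd with ⟨m, hm⟩
    omega
  have hp2 : p ≠ 2 := by
    intro h
    apply h2
    have := CharP.cast_eq_zero F p
    rw [h] at this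
    exact_mod_cast this
  have hp3 : 3 ≤ p := by
    have := hp.two_le
    omega
  have hpodd : p % 2 = 1 := hp.eq_two_or_odd.resolve_left hp2
  obtain ⟨k, hk⟩ := hρe
  obtain ⟨σ, ε, β, hσ, hε, hβinj, hβ1, hβ0⟩ := exists_data F d k (by omega)
  obtain ⟨N, hN⟩ : ∃ N : (P d → F) →ₗ[F] (P d → F), N = Nl σ ε := ⟨_, rfl⟩
  have hNapp : ∀ v, N v = Nf σ ε v := by
    intro v
    rw [hN]
    rfl
  obtain ⟨NM, hNM⟩ : ∃ NM : Matrix (P d) (P d) F, NM = LinearMap.toMatrix' N := ⟨_, rfl⟩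
  obtain ⟨X, hX⟩ : ∃ X : Matrix (P d) (P d) F, X = 1 + NM := ⟨_, rfl⟩
  have hXlin : Matrix.toLin' X = LinearMap.id + N := by
    rw [hX, hNM, map_add, Matrix.toLin'_one, Matrix.toLin'_toMatrix']
  have hXv : ∀ v, X *ᵥ v = v + Nf σ ε v := by
    intro v
    rw [← Matrix.toLin'_apply, hXlin, LinearMap.add_apply, LinearMap.id_apply, hNapp]
  have hN2 : NM * NM = 0 := by
    rw [hNM, ← LinearMap.toMatrix'_comp]
    have : N ∘ₗ N = 0 := by
      apply LinearMap.ext
      intro v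
      rw [LinearMap.comp_apply, hNapp, hNapp, Nf2]
      rfl
    rw [this, map_zero]
  have hNp : NM ^ p = 0 := by
    rw [show p = 2 + (p - 2) by omega, pow_add, pow_two, hN2, zero_mul]
  have hne : Nonempty (P d) := ⟨Sum.inl ⟨0, by omega⟩⟩
  have hXp : X ^ p = 1 := by
    rw [hX, add_pow_char_of_commute p (Commute.one_left NM), one_pow, hNp, add_zero]
  obtain ⟨x, hx⟩ : ∃ x : Matrix.GeneralLinearGroup (P d) F,
      (x : Matrix (P d) (P d) F) = X := by
    refine ⟨⟨X, X ^ (p - 1), ?_, ?_⟩, rfl⟩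
    · rw [← pow_succ', show p - 1 + 1 = p by omega, hXp]
    · rw [← pow_succ, show p - 1 + 1 = p by omega, hXp]
  have hxp : x ^ p = 1 := by
    apply Units.ext
    rw [Units.val_pow_eq_pow_val, hx, hXp]
    rfl
  have hiso : x ∈ Cfsg.isometryGroup F (Cfsg.quadFormPlus d F) := by
    intro u v
    show Cfsg.quadFormPlus d F ((x : Matrix (P d) (P d) F) *ᵥ u) = Cfsg.quadFormPlus d F u
    rw [hx, hXv, Nf_iso h2 σ ε hσ hε]
  have hNPx : NP (x : Matrix (P d) (P d) F) = N := by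
    unfold NP
    rw [hx, hXlin, add_sub_cancel_left]
  have hrange_le : LinearMap.range (NP (x : Matrix (P d) (P d) F)) ≤
      FxP (x : Matrix (P d) (P d) F) := by
    rw [hNPx]
    rintro _ ⟨v, rfl⟩
    rw [mem_FxP, hx, hXv, hNapp, Nf2, add_zero]
  have hfin : Module.finrank F ↥(LinearMap.range (NP (x : Matrix (P d) (P d) F))) = ρ := by
    rw [hNPx]
    have hli : LinearIndependent F
        (fun s : Fin k ⊕ Fin k => (Pi.single (Sum.inl (β s)) (1 : F) : P d → F)) :=
      (Pi.linearIndependent_single_one (P d) F).comp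
        (fun s : Fin k ⊕ Fin k => (Sum.inl (β s) : P d)) (fun a b h => hβinj (Sum.inl.inj h))
    have heq : LinearMap.range N = Submodule.span F
        (Set.range (fun s : Fin k ⊕ Fin k => (Pi.single (Sum.inl (β s)) (1 : F) : P d → F))) := by
      apply le_antisymm
      · rintro _ ⟨v, rfl⟩
        rw [hNapp]
        have hdec : Nf σ ε v = ∑ b : Fin d,
            (ε (σ b) * v (Sum.inr (σ b))) • (Pi.single (Sum.inl b) (1 : F) : P d → F) := by
          funext i
          rcases i with i | i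
          · rw [Nf_inl, Finset.sum_apply]
            simp [Pi.single_apply]
          · rw [Nf_inr, Finset.sum_apply]
            simp
        rw [hdec]
        apply Submodule.sum_mem
        intro b _
        rcases hβ0 b with ⟨s, rfl⟩ | h0
        · exact Submodule.smul_mem _ _ (Submodule.subset_span ⟨s, rfl⟩)
        · rw [h0, zero_mul, zero_smul]
          exact Submodule.zero_mem _
      · rw [Submodule.span_le]
        rintro _ ⟨s, rfl⟩
        exact ⟨_, by rw [hNapp]; exact Nf_pair σ ε hσ (β s) (hβ1 s)⟩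
    rw [heq, finrank_span_eq_card hli, Fintype.card_sum, Fintype.card_fin]
    omega
  have hx1 : x ≠ 1 := by
    intro h
    rw [h] at hfin
    have h0 : NP ((1 : Matrix.GeneralLinearGroup (P d) F) : Matrix (P d) (P d) F) = 0 := by
      unfold NP
      rw [Units.val_one, Matrix.toLin'_one, sub_self]
    rw [h0, LinearMap.range_zero, finrank_bot] at hfin
    omega
  have hord : orderOf x = p := orderOf_eq_prime hxp hx1
  refine ⟨x, ?_, hord, hrange_le, hfin⟩
  have hS := Cfsg.Agent.Lib.Helper44.NegPairs.sep_plusQ (F := F) d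
  have hcardP : 2 ≤ Fintype.card (P d) := by
    simp only [Fintype.card_sum, Fintype.card_fin]
    omega
  obtain ⟨g, hg⟩ : ∃ g : ↥(Cfsg.isometryGroup F
      ⇑(Cfsg.Agent.Lib.Helper44.NegPairs.plusQ d F)),
      (g : Matrix.GeneralLinearGroup (P d) F) = x := ⟨⟨x, hiso⟩, rfl⟩
  have hgp : g ^ p = 1 := by
    apply Subtype.ext
    rw [Subgroup.coe_pow, hg, hxp]
    rfl
  have hyy : g ^ ((p + 1) / 2) * g ^ ((p + 1) / 2) = g := by
    rw [← pow_add, show (p + 1) / 2 + (p + 1) / 2 = p + 1 by omega, pow_succ, hgp, one_mul]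
  have hmem := Cfsg.Agent.Lib.Helper14.OrthIndex.sq_mem_omega h2
    (Cfsg.Agent.Lib.Helper44.NegPairs.plusQ d F) hS hcardP (g ^ ((p + 1) / 2))
  rw [hyy] at hmem
  exact ⟨g, hmem, hg⟩

end Cfsg.Agent.Lib.Helper65.OPPELTA
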