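import Mathlib
import Cfsg.Agent.Lib.Helper30.PSgStmt

/-! S4321, piece TOP: the statement on the prime graph of the class sizes of the `p`-singular
elements, from the main lemma (graph casework). -/

set_option autoImplicit false

namespace Cfsg.Agent.Lib.Helper65.PSgTOP

open Subgroup
open Cfsg.Agent.Lib.Helper55.ClassSize Cfsg.Agent.Lib.Helper30.PSgStmt

universe u

theorem mul_dvd_of_primes {a b n : ℕ} (ha : a.Prime) (hb : b.Prime) (hab : a ≠ b) (h1 : a ∣ n)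
    (h2 : b ∣ n) : a * b ∣ n :=
  Nat.Coprime.mul_dvd_of_dvd_of_dvd ((Nat.coprime_primes ha hb).mpr hab) h1 h2

theorem casework {X : Type*} (Sg : X → Prop) (c : X → ℕ) (r s t t' : ℕ) (hr : r.Prime)
    (hs : s.Prime) (ht : t.Prime) (ht' : t'.Prime) (hrs : r ≠ s) (x x' y : X) (hx : Sg x)
    (hx' : Sg x') (hy : Sg y) (h1 : r ∣ c x) (h2 : t ∣ c x) (h3 : t ∣ c y) (h4 : t' ∣ c y)
    (h5 : t' ∣ c x') (h6 : s ∣ c x') :
    (∃ x, Sg x ∧ r * s ∣ c x) ∨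
    (∃ t, (t.Prime ∧ ∃ x, Sg x ∧ t ∣ c x) ∧ t ≠ r ∧ t ≠ s ∧ (∃ x, Sg x ∧ r * t ∣ c x) ∧
      (∃ x, Sg x ∧ t * s ∣ c x)) ∨
    (∃ t u, (t.Prime ∧ ∃ x, Sg x ∧ t ∣ c x) ∧ (u.Prime ∧ ∃ x, Sg x ∧ u ∣ c x) ∧ t ≠ r ∧
      u ≠ s ∧ t ≠ u ∧ (∃ x, Sg x ∧ r * t ∣ c x) ∧ (∃ x, Sg x ∧ t * u ∣ c x) ∧
      (∃ x, Sg x ∧ u * s ∣ c x)) := by
  by_cases hrt : r = t
  · subst hrt
    by_cases h's : t' = s
    · subst h's
      exact Or.inl ⟨y, hy, mul_dvd_of_primes hr hs hrs h3 h4⟩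
    · by_cases h'r : t' = r
      · subst h'r
        exact Or.inl ⟨x', hx', mul_dvd_of_primes hr hs hrs h5 h6⟩
      · exact Or.inr (Or.inl ⟨t', ⟨ht', y, hy, h4⟩, h'r, h's,
          ⟨y, hy, mul_dvd_of_primes hr ht' (Ne.symm h'r) h3 h4⟩,
          ⟨x', hx', mul_dvd_of_primes ht' hs h's h5 h6⟩⟩)
  · by_cases hts : t = s
    · subst hts
      exact Or.inl ⟨x, hx, mul_dvd_of_primes hr ht hrs h1 h2⟩
    · by_cases h's : t' = s
      · subst h's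
        exact Or.inr (Or.inl ⟨t, ⟨ht, x, hx, h2⟩, Ne.symm hrt, hts,
          ⟨x, hx, mul_dvd_of_primes hr ht hrt h1 h2⟩,
          ⟨y, hy, mul_dvd_of_primes ht ht' hts h3 h4⟩⟩)
      · by_cases h't : t' = t
        · subst h't
          exact Or.inr (Or.inl ⟨t', ⟨ht, x, hx, h2⟩, Ne.symm hrt, hts,
            ⟨x, hx, mul_dvd_of_primes hr ht hrt h1 h2⟩,
            ⟨x', hx', mul_dvd_of_primes ht hs hts h5 h6⟩⟩)
        · by_cases h'r : t' = r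
          · subst h'r
            exact Or.inl ⟨x', hx', mul_dvd_of_primes hr hs hrs h5 h6⟩
          · exact Or.inr (Or.inr ⟨t, t', ⟨ht, x, hx, h2⟩, ⟨ht', y, hy, h4⟩, Ne.symm hrt, h's,
              Ne.symm h't, ⟨x, hx, mul_dvd_of_primes hr ht hrt h1 h2⟩,
              ⟨y, hy, mul_dvd_of_primes ht ht' (Ne.symm h't) h3 h4⟩,
              ⟨x', hx', mul_dvd_of_primes ht' hs h's h5 h6⟩⟩)

/-- A power of `x` of order `p` whose class size divides that of `x`. -/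
theorem exists_order_p {G : Type*} [Group G] [Finite G] (p : ℕ) (x : G) (hx : p ∣ orderOf x) :
    ∃ u : G, orderOf u = p ∧ cs u ∣ cs x := by
  refine ⟨x ^ (orderOf x / p), orderOf_pow_orderOf_div (orderOf_pos x).ne' hx, ?_⟩
  apply index_dvd_of_le
  intro k hk
  rw [mem_cent] at hk ⊢
  exact ((Commute.pow_right (show Commute k x from hk) _)).eq

theorem main : TopDef.{u} := by
  intro hML G _ _ p _ hZ r s hr hs hrs
  obtain ⟨hrp, x, hx, hrx⟩ := hr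
  obtain ⟨hsp, x', hx', hsx'⟩ := hs
  obtain ⟨u, hu, hux⟩ := exists_order_p p x hx
  obtain ⟨v, hv, hvx'⟩ := exists_order_p p x' hx'
  obtain ⟨y, hy, h1, h2⟩ := hML G p hZ u v hu hv
  obtain ⟨t, ht, htu, hty⟩ := Nat.Prime.not_coprime_iff_dvd.mp h1
  obtain ⟨t', ht', ht'v, ht'y⟩ := Nat.Prime.not_coprime_iff_dvd.mp h2
  exact casework (fun x : G => p ∣ orderOf x) (fun x : G => (centralizer ({x} : Set G)).index)
    r s t t' hrp hsp ht ht' hrs x x' y hx hx' hy hrx (htu.trans hux) hty ht'y (ht'v.trans hvx')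
    hsx'

end Cfsg.Agent.Lib.Helper65.PSgTOP
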