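import Mathlib
import Cfsg.Agent.Lib.Helper7.ReeSolvStmt
import Cfsg.Agent.Lib.Helper50.Cores
import Cfsg.Agent.Lib.Helper78.Fitting
import Cfsg.Agent.S0009
import Cfsg.Agent.S0044

/-! S2361, piece FIT2: a finite solvable group without nontrivial normal `p`-subgroups for odd
`p` has a normal 2-subgroup containing its centralizer. -/

set_option autoImplicit false

namespace Cfsg.Agent.Lib.Helper65.RSFIT2

open Cfsg.Agent.Lib.Helper7.ReeSolvStmt

universe u

theorem main : Fit2.{u} := by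
  intro L _ _ hsolv hodd
  refine ⟨Cfsg.fittingSubgroup L, Cfsg.Agent.Lib.Helper78.Fitting.fitting_normal, ?_,
    Cfsg.Agent.S0044.result⟩
  have hF : Cfsg.fittingSubgroup L = Cfsg.pCore 2 L := by
    rw [Cfsg.Agent.S0009.result]
    apply le_antisymm
    · apply iSup_le
      intro p
      by_cases hp : (p : ℕ) = 2
      · rw [hp]
      · have hfact : Fact (p : ℕ).Prime := ⟨p.2⟩
        rw [hodd p p.2 hp _ (Cfsg.Agent.Lib.Helper78.Fitting.pCore_normal (p : ℕ))
          (Cfsg.Agent.Lib.Helper50.Cores.pCore_isPGroup (p : ℕ))]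
        exact bot_le
    · exact le_iSup (fun p : Nat.Primes => Cfsg.pCore (p : ℕ) L) ⟨2, Nat.prime_two⟩
  rw [hF]
  exact Cfsg.Agent.Lib.Helper50.Cores.pCore_isPGroup 2

end Cfsg.Agent.Lib.Helper65.RSFIT2
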