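import Mathlib
import Cfsg.Agent.Lib.Helper40.SFStmt

/-!
# S5664 piece ORBIT

Conjugating a Siegel element for `(d, w)` by a product of three commuting `L`-transvections
gives the Siegel element for `(d, w + u)`, `B u d = 0`.
-/

set_option autoImplicit false

namespace Cfsg.Agent.Lib.Helper65.SFORBIT

open Cfsg.Agent.Lib.Helper40.SFStmt
open Cfsg.Agent.Lib.Helper94.Basic

universe u

section
variable {L : Type u} [Field L] {n : ℕ}

/-- the product of three transvections -/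
def hmap (d y : W n L) (ε : L) : W n L ≃ₗ[L] W n L :=
  (ltv d (ε - 1)).trans ((ltv y (-1)).trans (ltv (y + d) 1))

theorem hmap_apply' (d y : W n L) (ε : L) (x : W n L) :
    hmap d y ε x = ltv (y + d) 1 (ltv y (-1) (ltv d (ε - 1) x)) := rfl

theorem hmap_isom (d y : W n L) (ε : L) (a b : W n L) :
    Cfsg.sympForm n L (hmap d y ε a) (hmap d y ε b) = Cfsg.sympForm n L a b := by
  rw [hmap_apply', hmap_apply', ltv_isom, ltv_isom, ltv_isom]

theorem hmap_formula (d y : W n L) (ε : L) (hyd : Cfsg.sympForm n L y d = 0) (x : W n L) :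
    hmap d y ε x = x + Cfsg.sympForm n L x d • y + Cfsg.sympForm n L x y • d +
      (ε * Cfsg.sympForm n L x d) • d := by
  have hdy : Cfsg.sympForm n L d y = 0 := by rw [sympForm_skew, hyd, neg_zero]
  rw [hmap_apply']
  simp only [ltv_apply, sympForm_add_left, sympForm_add_right, sympForm_smul_left,
    sympForm_self, hyd, hdy, mul_zero, add_zero]
  module

end

theorem main : Orbit.{u} := by
  intro F L _ _ _ n c e he d w c₀ hS hℓ u hu
  obtain ⟨ℓ, hℓdef⟩ : ∃ ℓ : L, ℓ = Cfsg.sympForm n L w d := ⟨_, rfl⟩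
  rw [← hℓdef] at hℓ
  obtain ⟨y, hy⟩ : ∃ y : W n L, y = ℓ⁻¹ • u := ⟨_, rfl⟩
  obtain ⟨ε, hε⟩ : ∃ ε : L, ε = - Cfsg.sympForm n L w y / ℓ := ⟨_, rfl⟩
  have hyd : Cfsg.sympForm n L y d = 0 := by rw [hy, sympForm_smul_left, hu, mul_zero]
  have hdy : Cfsg.sympForm n L d y = 0 := by rw [sympForm_skew, hyd, neg_zero]
  have hd : hmap d y ε d = d := by
    rw [hmap_formula d y ε hyd, sympForm_self, hdy]
    simp
  have hw : hmap d y ε w = w + u := by
    rw [hmap_formula d y ε hyd, ← hℓdef]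
    have h1 : ℓ • y = u := by rw [hy, smul_smul, mul_inv_cancel₀ hℓ, one_smul]
    have h2 : ε * ℓ = - Cfsg.sympForm n L w y := by rw [hε, div_mul_cancel₀ _ hℓ]
    rw [h1, h2, neg_smul]
    abel
  obtain ⟨h', hh'def⟩ : ∃ h' : W n L ≃ₗ[F] W n L, h' = (hmap d y ε).restrictScalars F :=
    ⟨_, rfl⟩
  have hh'app : ∀ a : W n L, h' a = hmap d y ε a := fun a => by rw [hh'def]; rfl
  have hh' : h' ∈ c.M := by
    rw [hh'def]
    exact c.hsub _ (hmap_isom d y ε)
  refine ⟨h' * e * h'⁻¹, c.M.mul_mem (c.M.mul_mem hh' he) (c.M.inv_mem hh'), ?_⟩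
  intro x
  have hcancel : ∀ a : W n L, h' (h'⁻¹ a) = a := fun a => by
    rw [LinearEquiv.coe_inv, LinearEquiv.apply_symm_apply]
  have key : ∀ a b : W n L, ff c.τ (h'⁻¹ a) b = ff c.τ a (h' b) := by
    intro a b
    have h1 := c.isom h' hh' (h'⁻¹ a) b
    rw [hcancel] at h1
    exact h1.symm
  show h' (e (h'⁻¹ x)) = _
  rw [hS (h'⁻¹ x), map_add, map_add, map_add, map_smul, map_smul, map_smul, hcancel,
    key, key, hh'app d, hh'app w, hd, hw]

end Cfsg.Agent.Lib.Helper65.SFORBIT
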