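import Mathlib
import Cfsg.Agent.Lib.Helper40.SFStmt

/-!
# S5664 piece TVODD

Characteristic not two: from a Siegel element for `(d, w)` with `f w d = 0` and the Siegel
element for `(d, w + d)` (ORBIT with `u = d`) one gets the transvection
`x ↦ x + (2 * f x d) • d`.
-/

set_option autoImplicit false

namespace Cfsg.Agent.Lib.Helper65.SFTVODD

open Cfsg.Agent.Lib.Helper40.SFStmt
open Cfsg.Agent.Lib.Helper94.Basic

universe u

theorem main (h : Orbit.{u}) : TvOdd.{u} := by
  intro F L _ _ _ n c h2 e he d w c₀ hS hd hwd hℓ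
  obtain ⟨e', he', hS'⟩ := h F L n c e he d w c₀ hS hℓ d (sympForm_self d)
  refine ⟨e' * e⁻¹, c.M.mul_mem he' (c.M.inv_mem he), d, 2, hd, h2, ?_⟩
  intro x
  obtain ⟨x', hx'⟩ : ∃ x' : W n L, x' = e⁻¹ x := ⟨_, rfl⟩
  have hcancel : e x' = x := by
    rw [hx', LinearEquiv.coe_inv, LinearEquiv.apply_symm_apply]
  have h3 := hS x'
  rw [hcancel] at h3
  have h1 : ff c.τ x d = ff c.τ x' d := by
    rw [h3]
    simp only [ff_add_left, ff_smul_left, ff_self, hwd, mul_zero, add_zero]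
  show e' (e⁻¹ x) = _
  rw [← hx', hS' x', ff_add_right, h1]
  conv_rhs => rw [h3]
  module

end Cfsg.Agent.Lib.Helper65.SFTVODD
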