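import Mathlib
import Cfsg.Agent.Lib.Helper83.SgStmt
import Cfsg.Agent.Lib.Helper65.SgBase
import Cfsg.Agent.S5016
import Cfsg.Agent.S5070

/-!
# S5072, piece R2: opposite singular lines give a rank one pair covered by `SL₂`
-/

set_option autoImplicit false
open Matrix

namespace Cfsg.Agent.Lib.Helper65.SgR2

open Cfsg Cfsg.Agent.Lib.Helper83.SgStmt Cfsg.Agent.Lib.Helper65.SgBase

universe u

variable {m : ℕ} {F : Type u} [Field F]

/-- a hyperbolic quadruple: two singular lines in duality -/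
structure Quad (p r p' r' : Vec m F) : Prop where
  Qp : Qf m F p = 0
  Qr : Qf m F r = 0
  Qp' : Qf m F p' = 0
  Qr' : Qf m F r' = 0
  pr : B m F p r = 0
  pp' : B m F p p' = 1
  pr' : B m F p r' = 0
  rp' : B m F r p' = 0
  rr' : B m F r r' = 1
  p'r' : B m F p' r' = 0

namespace Quad

variable {p r p' r' : Vec m F} (hq : Quad p r p' r')
include hq

theorem pp : B m F p p = 0 := B_self_of p hq.Qp
theorem rr : B m F r r = 0 := B_self_of r hq.Qr
theorem p'p' : B m F p' p' = 0 := B_self_of p' hq.Qp'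
theorem r'r' : B m F r' r' = 0 := B_self_of r' hq.Qr'
theorem rp : B m F r p = 0 := by rw [B_comm, hq.pr]
theorem p'p : B m F p' p = 1 := by rw [B_comm, hq.pp']
theorem r'p : B m F r' p = 0 := by rw [B_comm, hq.pr']
theorem p'r : B m F p' r = 0 := by rw [B_comm, hq.rp']
theorem r'r : B m F r' r = 1 := by rw [B_comm, hq.rr']
theorem r'p' : B m F r' p' = 0 := by rw [B_comm, hq.p'r']

end Quad

/-- the endomorphism attached to a `2 × 2` matrix and a hyperbolic quadruple -/
def L4 (p r p' r' : Vec m F) (g : Matrix (Fin 2) (Fin 2) F) : Vec m F →ₗ[F] Vec m F :=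
  LinearMap.id + ((B m F).flip p').smulRight ((g 0 0 - 1) • p + g 1 0 • r')
    + ((B m F).flip r).smulRight (g 0 1 • p + (g 1 1 - 1) • r')
    + ((B m F).flip r').smulRight ((g 0 0 - 1) • r + (- g 1 0) • p')
    + ((B m F).flip p).smulRight ((- g 0 1) • r + (g 1 1 - 1) • p')

theorem L4_apply (p r p' r' : Vec m F) (g : Matrix (Fin 2) (Fin 2) F) (v : Vec m F) :
    L4 p r p' r' g v = v + B m F v p' • ((g 0 0 - 1) • p + g 1 0 • r')
      + B m F v r • (g 0 1 • p + (g 1 1 - 1) • r')
      + B m F v r' • ((g 0 0 - 1) • r + (- g 1 0) • p')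
      + B m F v p • ((- g 0 1) • r + (g 1 1 - 1) • p') := by
  simp [L4]

theorem L4_one (p r p' r' : Vec m F) : L4 p r p' r' 1 = LinearMap.id := by
  apply LinearMap.ext
  intro v
  simp [L4_apply]

theorem L4_mul {p r p' r' : Vec m F} (hq : Quad p r p' r') (g h : Matrix (Fin 2) (Fin 2) F) :
    L4 p r p' r' (g * h) = (L4 p r p' r' g).comp (L4 p r p' r' h) := by
  apply LinearMap.ext
  intro v
  simp only [LinearMap.comp_apply, L4_apply, Matrix.mul_apply, Fin.sum_univ_two, map_add,
    map_sub, map_smul, map_neg, LinearMap.add_apply, LinearMap.sub_apply, LinearMap.smul_apply,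
    LinearMap.neg_apply, smul_eq_mul, hq.pr, hq.pp', hq.pr', hq.rp', hq.rr', hq.p'r', hq.pp,
    hq.rr, hq.p'p', hq.r'r', hq.rp, hq.p'p, hq.r'p, hq.p'r, hq.r'r, hq.r'p']
  module

theorem L4_Q {p r p' r' : Vec m F} (hq : Quad p r p' r') (g : Matrix (Fin 2) (Fin 2) F)
    (hdet : g 0 0 * g 1 1 - g 0 1 * g 1 0 = 1) (v : Vec m F) :
    Qf m F (L4 p r p' r' g v) = Qf m F v := by
  rw [L4_apply]
  simp only [Q_add, Q_smul, map_add, map_sub, map_smul, map_neg, LinearMap.add_apply,
    LinearMap.sub_apply, LinearMap.smul_apply, LinearMap.neg_apply, smul_eq_mul, hq.pr, hq.pp',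
    hq.pr', hq.rp', hq.rr', hq.p'r', hq.pp, hq.rr, hq.p'p', hq.r'r', hq.rp, hq.p'p, hq.r'p,
    hq.p'r, hq.r'r, hq.r'p', hq.Qp, hq.Qr, hq.Qp', hq.Qr']
  linear_combination (B m F v p' * B m F v p + B m F v r * B m F v r') * hdet

/-- the isometry attached to an element of `SL₂` -/
noncomputable def phiF {p r p' r' : Vec m F} (hq : Quad p r p' r')
    (g : Matrix.SpecialLinearGroup (Fin 2) F) : OG m F :=
  ogOf (L4 p r p' r' g.1) (L4 p r p' r' (g⁻¹).1)
    (by rw [← L4_mul hq, ← Matrix.SpecialLinearGroup.coe_mul, mul_inv_cancel,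
      Matrix.SpecialLinearGroup.coe_one, L4_one])
    (by rw [← L4_mul hq, ← Matrix.SpecialLinearGroup.coe_mul, inv_mul_cancel,
      Matrix.SpecialLinearGroup.coe_one, L4_one])
    (L4_Q hq g.1 (Cfsg.Agent.S5016.det_eq g))

theorem act_phiF {p r p' r' : Vec m F} (hq : Quad p r p' r')
    (g : Matrix.SpecialLinearGroup (Fin 2) F) (v : Vec m F) :
    act m F (phiF hq g) v = L4 p r p' r' g.1 v := by
  unfold phiF
  rw [act_ogOf]

/-- the homomorphism from `SL₂` attached to a hyperbolic quadruple -/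
noncomputable def phi {p r p' r' : Vec m F} (hq : Quad p r p' r') :
    Matrix.SpecialLinearGroup (Fin 2) F →* OG m F where
  toFun g := phiF hq g
  map_one' := by
    apply ext_act
    intro v
    rw [act_phiF, act_one, Matrix.SpecialLinearGroup.coe_one, L4_one]
    rfl
  map_mul' g h := by
    apply ext_act
    intro v
    rw [act_mul, act_phiF, act_phiF, act_phiF, Matrix.SpecialLinearGroup.coe_mul, L4_mul hq]
    rfl

theorem act_phi {p r p' r' : Vec m F} (hq : Quad p r p' r')
    (g : Matrix.SpecialLinearGroup (Fin 2) F) (v : Vec m F) :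
    act m F (phi hq g) v = L4 p r p' r' g.1 v :=
  act_phiF hq g v

theorem phi_U {p r p' r' : Vec m F} (hq : Quad p r p' r') (hl : IsLine m F p r) (s : F) :
    phi hq (Cfsg.Agent.S5016.U s) = sg hl s := by
  apply ext_act
  intro v
  rw [act_phi, act_sg, L4_apply]
  have h00 := Cfsg.Agent.S5016.U00 s
  have h01 := Cfsg.Agent.S5016.U01 s
  have h10 := Cfsg.Agent.S5016.U10 s
  have h11 := Cfsg.Agent.S5016.U11 s
  rw [h00, h01, h10, h11]
  show _ = v + s • (B m F v r • p - B m F v p • r)
  module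

theorem phi_L {p r p' r' : Vec m F} (hq : Quad p r p' r') (hl' : IsLine m F p' r') (t : F) :
    phi hq (Cfsg.Agent.S5016.L t) = sg hl' (-t) := by
  apply ext_act
  intro v
  rw [act_phi, act_sg, L4_apply]
  have h00 := Cfsg.Agent.S5016.L00 t
  have h01 := Cfsg.Agent.S5016.L01 t
  have h10 := Cfsg.Agent.S5016.L10 t
  have h11 := Cfsg.Agent.S5016.L11 t
  rw [h00, h01, h10, h11]
  show _ = v + (-t) • (B m F v r' • p' - B m F v p' • r')
  module

theorem map_upper (hS : SIEG.{u}) {p r p' r' : Vec m F} (hq : Quad p r p' r')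
    (hl : IsLine m F p r) : (upperUnipotentSL2 F).map (phi hq) = Sg m F p r := by
  ext x
  rw [Subgroup.mem_map, hS.2 m F p r hl x]
  constructor
  · rintro ⟨g, hg, rfl⟩
    obtain ⟨s, rfl⟩ := (Cfsg.Agent.S5016.mem_upper_iff' g).mp hg
    exact ⟨s, by rw [phi_U hq hl]; exact isSieg_sg hl s⟩
  · rintro ⟨c, hc⟩
    refine ⟨Cfsg.Agent.S5016.U c, (Cfsg.Agent.S5016.mem_upper_iff' _).mpr ⟨_, rfl⟩, ?_⟩
    rw [phi_U hq hl]
    exact isSieg_unique (isSieg_sg hl c) hc

theorem map_lower (hS : SIEG.{u}) {p r p' r' : Vec m F} (hq : Quad p r p' r')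
    (hl' : IsLine m F p' r') : (lowerUnipotentSL2 F).map (phi hq) = Sg m F p' r' := by
  ext x
  rw [Subgroup.mem_map, hS.2 m F p' r' hl' x]
  constructor
  · rintro ⟨g, hg, rfl⟩
    obtain ⟨s, rfl⟩ := (Cfsg.Agent.S5016.mem_lower_iff' g).mp hg
    exact ⟨-s, by rw [phi_L hq hl']; exact isSieg_sg hl' (-s)⟩
  · rintro ⟨c, hc⟩
    refine ⟨Cfsg.Agent.S5016.L (-c), (Cfsg.Agent.S5016.mem_lower_iff' _).mpr ⟨_, rfl⟩, ?_⟩
    rw [phi_L hq hl', neg_neg]
    exact isSieg_unique (isSieg_sg hl' c) hc

theorem phi_ker {p r p' r' : Vec m F} (hq : Quad p r p' r') :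
    (phi hq).ker ≤ Subgroup.center (Matrix.SpecialLinearGroup (Fin 2) F) := by
  intro g hg
  rw [MonoidHom.mem_ker] at hg
  have he := congrArg (fun x => act m F x p) hg
  have he' := congrArg (fun x => act m F x r') hg
  simp only [act_phi, act_one, L4_apply, hq.pp, hq.pr, hq.pp', hq.pr', hq.r'p, hq.r'r, hq.r'p',
    hq.r'r', zero_smul, one_smul, add_zero] at he he'
  have ha : g.1 0 0 = 1 := by
    have h3 := congrArg (fun x => B m F x p') he
    simpa [hq.pp', hq.r'p'] using h3
  have hc : g.1 1 0 = 0 := by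
    have h3 := congrArg (fun x => B m F x r) he
    simpa [hq.pr, hq.r'r] using h3
  have hb : g.1 0 1 = 0 := by
    have h3 := congrArg (fun x => B m F x p') he'
    simpa [hq.pp', hq.r'p'] using h3
  have hd : g.1 1 1 = 1 := by
    have h3 := congrArg (fun x => B m F x r) he'
    simpa [hq.pr, hq.r'r] using h3
  have hg1 : g = 1 := by
    apply Cfsg.Agent.S5016.ext2
    · rw [Cfsg.Agent.S5016.one00]
      exact ha
    · rw [Cfsg.Agent.S5016.one01]
      exact hb
    · rw [Cfsg.Agent.S5016.one10]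
      exact hc
    · rw [Cfsg.Agent.S5016.one11]
      exact hd
  rw [hg1]
  exact Subgroup.one_mem _

theorem pair_of_quad (hS : SIEG.{u}) {p r p' r' : Vec m F} (hq : Quad p r p' r')
    (hl : IsLine m F p r) (hl' : IsLine m F p' r') :
    IsRankOnePair (Sg m F p r) (Sg m F p' r') ∧ IsPSL2PairOver F (Sg m F p r) (Sg m F p' r') := by
  have h2 := Cfsg.Agent.S5070.pair_map (phi hq) (phi_ker hq)
  rw [map_upper hS hq hl, map_lower hS hq hl'] at h2
  exact h2

theorem dual_exists {p r p' r' : Vec m F} (hl' : IsLine m F p' r') (a b c d : F)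
    (ha : B m F p p' = a) (hb : B m F p r' = b) (hc : B m F r p' = c) (hd : B m F r r' = d)
    (hD : a * d - b * c ≠ 0) :
    ∃ p2 r2 : Vec m F, B m F p p2 = 1 ∧ B m F p r2 = 0 ∧ B m F r p2 = 0 ∧ B m F r r2 = 1 ∧
      IsLine m F p2 r2 ∧ Submodule.span F {p2, r2} = Submodule.span F {p', r'} := by
  obtain ⟨i, hi⟩ : ∃ i : F, (a * d - b * c) * i = 1 := ⟨_, mul_inv_cancel₀ hD⟩
  have e1 : B m F p ((d * i) • p' - (c * i) • r') = 1 := by
    simp only [map_sub, map_smul, smul_eq_mul, ha, hb]
    linear_combination hi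
  have e2 : B m F p ((-(b * i)) • p' + (a * i) • r') = 0 := by
    simp only [map_add, map_smul, smul_eq_mul, ha, hb]
    ring
  have e3 : B m F r ((d * i) • p' - (c * i) • r') = 0 := by
    simp only [map_sub, map_smul, smul_eq_mul, hc, hd]
    ring
  have e4 : B m F r ((-(b * i)) • p' + (a * i) • r') = 1 := by
    simp only [map_add, map_smul, smul_eq_mul, hc, hd]
    linear_combination hi
  have q1 : Qf m F ((d * i) • p' - (c * i) • r') = 0 := by
    rw [Q_sub, Q_smul, Q_smul, line_Qp hl', line_Qr hl']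
    simp only [map_smul, LinearMap.smul_apply, smul_eq_mul, line_B hl']
    ring
  have q2 : Qf m F ((-(b * i)) • p' + (a * i) • r') = 0 := by
    rw [Q_add, Q_smul, Q_smul, line_Qp hl', line_Qr hl']
    simp only [map_smul, LinearMap.smul_apply, smul_eq_mul, line_B hl']
    ring
  have q3 : B m F ((d * i) • p' - (c * i) • r') ((-(b * i)) • p' + (a * i) • r') = 0 := by
    simp only [map_add, map_sub, map_smul, LinearMap.sub_apply, LinearMap.smul_apply,
      smul_eq_mul, line_B hl', line_B' hl', line_Bpp hl', line_Brr hl']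
    ring
  refine ⟨(d * i) • p' - (c * i) • r', (-(b * i)) • p' + (a * i) • r', e1, e2, e3, e4,
    ⟨?_, q1, q2, ?_⟩, ?_⟩
  · rw [LinearIndependent.pair_iff]
    intro s t hst
    have h1 := congrArg (fun x => B m F p x) hst
    have h2 := congrArg (fun x => B m F r x) hst
    simp only [map_add, map_smul, smul_eq_mul, e1, e2, e3, e4, map_zero, mul_one, mul_zero,
      add_zero, zero_add] at h1 h2
    exact ⟨h1, h2⟩
  · have h := Q_add ((d * i) • p' - (c * i) • r') ((-(b * i)) • p' + (a * i) • r')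
    rw [q1, q2, q3] at h
    simpa using h
  · apply le_antisymm
    · rw [Submodule.span_le]
      intro x hx
      have hp' : p' ∈ Submodule.span F {p', r'} := Submodule.subset_span (by simp)
      have hr' : r' ∈ Submodule.span F {p', r'} := Submodule.subset_span (by simp)
      rcases hx with rfl | rfl
      · exact Submodule.sub_mem _ (Submodule.smul_mem _ _ hp') (Submodule.smul_mem _ _ hr')
      · exact Submodule.add_mem _ (Submodule.smul_mem _ _ hp') (Submodule.smul_mem _ _ hr')
    · rw [Submodule.span_le]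
      intro x hx
      have hp2 : (d * i) • p' - (c * i) • r' ∈ Submodule.span F
          {(d * i) • p' - (c * i) • r', (-(b * i)) • p' + (a * i) • r'} :=
        Submodule.subset_span (by simp)
      have hr2 : (-(b * i)) • p' + (a * i) • r' ∈ Submodule.span F
          {(d * i) • p' - (c * i) • r', (-(b * i)) • p' + (a * i) • r'} :=
        Submodule.subset_span (by simp)
      rcases hx with rfl | rfl
      · have e : x = a • ((d * i) • x - (c * i) • r') + c • ((-(b * i)) • x + (a * i) • r') := by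
          have e' : a • ((d * i) • x - (c * i) • r') + c • ((-(b * i)) • x + (a * i) • r')
              = ((a * d - b * c) * i) • x := by module
          rw [e', hi, one_smul]
        have hm := Submodule.add_mem _ (Submodule.smul_mem _ a hp2) (Submodule.smul_mem _ c hr2)
        rw [← e] at hm
        exact hm
      · have e : x = b • ((d * i) • p' - (c * i) • x) + d • ((-(b * i)) • p' + (a * i) • x) := by
          have e' : b • ((d * i) • p' - (c * i) • x) + d • ((-(b * i)) • p' + (a * i) • x)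
              = ((a * d - b * c) * i) • x := by module
          rw [e', hi, one_smul]
        have hm := Submodule.add_mem _ (Submodule.smul_mem _ b hp2) (Submodule.smul_mem _ d hr2)
        rw [← e] at hm
        exact hm

theorem main : Cfsg.Agent.Lib.Helper83.SgStmt.R2.{u} := by
  intro hS hSPAN m F _ p r p' r' hl hl' hdet
  obtain ⟨p2, r2, h1, h2, h3, h4, hl2, hsp⟩ :=
    dual_exists (p := p) (r := r) hl' _ _ _ _ rfl rfl rfl rfl hdet
  have hq : Quad p r p2 r2 :=
    ⟨line_Qp hl, line_Qr hl, line_Qp hl2, line_Qr hl2, line_B hl, h1, h2, h3, h4, line_B hl2⟩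
  have h := pair_of_quad hS hq hl hl2
  rw [hSPAN m F p' r' p2 r2 hsp] at h
  exact h

end Cfsg.Agent.Lib.Helper65.SgR2
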