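import Mathlib
import Cfsg.Agent.Lib.Helper52.SpStmt
import Cfsg.Agent.Lib.Helper52.PslP7c
import Cfsg.Agent.Lib.Helper39.LawEmb

/-!
# S5171, piece TA: the Levi torus of `Sp_{2m}` with upper-left determinant one
-/

set_option autoImplicit false

namespace Cfsg.Agent.Lib.Helper65.SpTA

open Matrix Cfsg.Agent.Lib.Helper43.SpBasic Cfsg.Agent.Lib.Helper43.SpSylow
open Cfsg.Agent.Lib.Helper43.PSLnUT (IsUT isUT_one)
open Cfsg.Agent.Lib.Helper52.SpStmt Cfsg.Agent.Lib.Helper39.LawEmb

universe u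

section SL

variable {n : ℕ} {K : Type u} [Field K]

/-- the set of transvections of `SL_n` -/
def TV (n : ℕ) (K : Type u) [Field K] : Set (SpecialLinearGroup (Fin n) K) :=
  {x | ∃ (i j : Fin n) (h : i ≠ j) (a : K), x = SpecialLinearGroup.transvection h a}

theorem transv_mem {i j : Fin n} (h : i ≠ j) (a : K) :
    SpecialLinearGroup.transvection h a ∈ Subgroup.closure (TV n K) :=
  Subgroup.subset_closure ⟨i, j, h, a, rfl⟩

theorem H_mem (i0 i1 : Fin n) (h : i0 ≠ i1) (c : K) :
    Cfsg.Agent.Lib.Helper52.PslP7c.H i0 i1 h c ∈ Subgroup.closure (TV n K) := by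
  unfold Cfsg.Agent.Lib.Helper52.PslP7c.H
  exact mul_mem (mul_mem (mul_mem (mul_mem (mul_mem (transv_mem h c)
    (transv_mem (Ne.symm h) _)) (transv_mem h c)) (transv_mem h _))
    (transv_mem (Ne.symm h) 1)) (transv_mem h _)

theorem diag_mem (d : ℕ) :
    ∀ (k : ℕ), n - k = d → ∀ t : SpecialLinearGroup (Fin n) K,
      (∀ i j : Fin n, i ≠ j → t i j = 0) → (∀ j : Fin n, j.val < k → t j j = 1) →
      t ∈ Subgroup.closure (TV n K) := by
  induction d with
  | zero =>
    intro k hk t ht h1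
    have : t = 1 := by
      apply Subtype.ext
      ext i j
      show t i j = (1 : Matrix (Fin n) (Fin n) K) i j
      by_cases hij : i = j
      · subst hij
        rw [h1 i (by have := i.isLt; omega), Matrix.one_apply_eq]
      · rw [ht i j hij, Matrix.one_apply_ne hij]
    rw [this]
    exact one_mem _
  | succ d ih =>
    intro k hk t ht h1
    have htd : (t : Matrix (Fin n) (Fin n) K) = Matrix.diagonal (fun i => t i i) := by
      ext i j
      by_cases hij : i = j
      · subst hij; rw [Matrix.diagonal_apply_eq]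
      · rw [Matrix.diagonal_apply_ne _ hij]; exact ht i j hij
    have hdet : ∏ i, t i i = 1 := by
      have h2 : (t : Matrix (Fin n) (Fin n) K).det = 1 := t.2
      rw [htd, Matrix.det_diagonal] at h2
      exact h2
    have hkn : k < n := by omega
    by_cases hlast : k + 1 = n
    · refine ih (k + 1) (by omega) t ht ?_
      intro j hj
      by_cases hjk : j.val < k
      · exact h1 j hjk
      · have hjk' : j.val = k := by omega
        rw [Finset.prod_eq_single j] at hdet
        · exact hdet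
        · intro b _ hbj
          have : b.val ≠ j.val := fun h => hbj (Fin.ext h)
          exact h1 b (by have := b.isLt; omega)
        · intro h; exact absurd (Finset.mem_univ j) h
    · have hk1 : k + 1 < n := by omega
      set i0 : Fin n := ⟨k, hkn⟩ with hi0
      set i1 : Fin n := ⟨k + 1, hk1⟩ with hi1
      have hne : i0 ≠ i1 := fun h => by
        have := congrArg Fin.val h
        simp [hi0, hi1] at this
      have hc : t i0 i0 ≠ 0 := by
        intro h0
        have : ∏ i, t i i = 0 := Finset.prod_eq_zero (Finset.mem_univ i0) h0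
        rw [hdet] at this
        exact one_ne_zero this
      have hc' : (t i0 i0)⁻¹ ≠ 0 := inv_ne_zero hc
      have hHm := H_mem i0 i1 hne (t i0 i0)⁻¹
      have hcoe := Cfsg.Agent.Lib.Helper52.PslP7c.H_coe i0 i1 hne (t i0 i0)⁻¹ hc'
      have hentry : ∀ r s : Fin n, (Cfsg.Agent.Lib.Helper52.PslP7c.H i0 i1 hne (t i0 i0)⁻¹ * t) r s
          = (if r = i0 then (t i0 i0)⁻¹ else if r = i1 then ((t i0 i0)⁻¹)⁻¹ else 1) * t r s := by
        intro r s
        show ((Cfsg.Agent.Lib.Helper52.PslP7c.H i0 i1 hne (t i0 i0)⁻¹ : Matrix (Fin n) (Fin n) K)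
          * (t : Matrix (Fin n) (Fin n) K)) r s = _
        rw [hcoe, Matrix.diagonal_mul]
      have h2 := ih (k + 1) (by omega)
        (Cfsg.Agent.Lib.Helper52.PslP7c.H i0 i1 hne (t i0 i0)⁻¹ * t) ?_ ?_
      · have h3 : t = (Cfsg.Agent.Lib.Helper52.PslP7c.H i0 i1 hne (t i0 i0)⁻¹)⁻¹ *
            (Cfsg.Agent.Lib.Helper52.PslP7c.H i0 i1 hne (t i0 i0)⁻¹ * t) := by
          rw [inv_mul_cancel_left]
        rw [h3]
        exact mul_mem (inv_mem hHm) h2
      · intro i j hij
        rw [hentry, ht i j hij, mul_zero]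
      · intro j hj
        rw [hentry]
        by_cases hj0 : j = i0
        · rw [if_pos hj0, hj0]
          exact inv_mul_cancel₀ hc
        · have hjk : j.val < k := by
            have : j.val ≠ k := fun h => hj0 (Fin.ext h)
            omega
          have hj1 : j ≠ i1 := fun h => by
            have := congrArg Fin.val h
            simp [hi1] at this
            omega
          rw [if_neg hj0, if_neg hj1, one_mul]
          exact h1 j hjk

/-- a diagonal element of `SL_n` is a product of transvections -/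
theorem diag_closure (t : SpecialLinearGroup (Fin n) K) (ht : ∀ i j : Fin n, i ≠ j → t i j = 0) :
    t ∈ Subgroup.closure (TV n K) :=
  diag_mem (n - 0) 0 rfl t ht (fun j hj => absurd hj (Nat.not_lt_zero _))

end SL

section Sp

variable {m : ℕ} {F : Type u} [Field F]

theorem leviSp_coe (A : SpecialLinearGroup (Fin m) F) :
    ((leviSp m F A : Matrix.symplecticGroup (Fin m) F) :
      Matrix (Fin m ⊕ Fin m) (Fin m ⊕ Fin m) F) =
      fromBlocks (A : Matrix (Fin m) (Fin m) F) 0 0
        ((A⁻¹ : SpecialLinearGroup (Fin m) F) : Matrix (Fin m) (Fin m) F)ᵀ := rfl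

theorem sl_mul_inv (A : SpecialLinearGroup (Fin m) F) :
    (A : Matrix (Fin m) (Fin m) F) *
      ((A⁻¹ : SpecialLinearGroup (Fin m) F) : Matrix (Fin m) (Fin m) F) = 1 := by
  rw [← Matrix.SpecialLinearGroup.coe_mul, mul_inv_cancel, Matrix.SpecialLinearGroup.coe_one]

theorem sl_inv_mul (A : SpecialLinearGroup (Fin m) F) :
    ((A⁻¹ : SpecialLinearGroup (Fin m) F) : Matrix (Fin m) (Fin m) F) *
      (A : Matrix (Fin m) (Fin m) F) = 1 := by
  rw [← Matrix.SpecialLinearGroup.coe_mul, inv_mul_cancel, Matrix.SpecialLinearGroup.coe_one]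

theorem symm_conj (A s : Matrix (Fin m) (Fin m) F) (hs : s.IsSymm) : (A * s * Aᵀ).IsSymm := by
  unfold Matrix.IsSymm
  rw [Matrix.transpose_mul, Matrix.transpose_mul, Matrix.transpose_transpose, hs.eq,
    Matrix.mul_assoc]

theorem levi_conj_mk [Finite F] (A : SpecialLinearGroup (Fin m) F)
    (s : Matrix (Fin m) (Fin m) F) (hs : s.IsSymm) :
    leviSp m F A * mk 1 s isUT_one hs * (leviSp m F A)⁻¹ =
      mk 1 ((A : Matrix (Fin m) (Fin m) F) * s * (A : Matrix (Fin m) (Fin m) F)ᵀ) isUT_one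
        (symm_conj _ s hs) := by
  rw [← map_inv]
  apply Subtype.ext
  show ((leviSp m F A : Matrix.symplecticGroup (Fin m) F) :
      Matrix (Fin m ⊕ Fin m) (Fin m ⊕ Fin m) F) * mkMat 1 s *
    ((leviSp m F A⁻¹ : Matrix.symplecticGroup (Fin m) F) :
      Matrix (Fin m ⊕ Fin m) (Fin m ⊕ Fin m) F) = mkMat 1 _
  rw [leviSp_coe, leviSp_coe, inv_inv]
  unfold mkMat
  rw [Matrix.transpose_one, inv_one, Matrix.mul_one, Matrix.mul_one, Matrix.fromBlocks_multiply,
    Matrix.fromBlocks_multiply]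
  have h2 : ((A⁻¹ : SpecialLinearGroup (Fin m) F) : Matrix (Fin m) (Fin m) F)ᵀ *
      (A : Matrix (Fin m) (Fin m) F)ᵀ = 1 := by
    rw [← Matrix.transpose_mul, sl_mul_inv, Matrix.transpose_one]
  simp only [Matrix.zero_mul, Matrix.mul_zero, add_zero, zero_add, Matrix.mul_one, sl_mul_inv, h2]

instance finSp [Fintype F] : Finite (Matrix.symplecticGroup (Fin m) F) :=
  Subtype.finite

theorem levi_norm_QS [Fintype F] (A : SpecialLinearGroup (Fin m) F) :
    leviSp m F A ∈ Subgroup.normalizer (QS m F : Set (Matrix.symplecticGroup (Fin m) F)) := by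
  apply Cfsg.Agent.Lib.Helper52.PslP7c.mem_normalizer_of_conj
  have h : QS m F ≤ (QS m F).comap (MulAut.conj (leviSp m F A)).toMonoidHom := by
    have e : QS m F = Subgroup.closure {x | ∃ (s : Matrix (Fin m) (Fin m) F) (hs : s.IsSymm),
        x = mk 1 s isUT_one hs} := rfl
    conv_lhs => rw [e]
    rw [Subgroup.closure_le]
    rintro _ ⟨s, hs, rfl⟩
    show leviSp m F A * mk 1 s isUT_one hs * (leviSp m F A)⁻¹ ∈ QS m F
    rw [levi_conj_mk A s hs]
    exact Subgroup.subset_closure ⟨_, _, rfl⟩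
  intro x hx
  exact h hx

theorem pr_levi_norm_RQ [Fintype F] (A : SpecialLinearGroup (Fin m) F) :
    pr (leviSp m F A) ∈ Subgroup.normalizer (RQ m F : Set (Cfsg.PSp m F)) :=
  Subgroup.le_normalizer_map pr (Subgroup.mem_map_of_mem pr (levi_norm_QS A))

theorem order_levi_transv [Fintype F] (p : ℕ) [Fact p.Prime] [CharP F p] {k l : Fin m}
    (hkl : k ≠ l) (a : F) :
    ∃ e : ℕ, orderOf (pr (leviSp m F (SpecialLinearGroup.transvection hkl a))) = p ^ e := by
  have hp : p.Prime := Fact.out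
  have h1 : (pr (leviSp m F (SpecialLinearGroup.transvection hkl a))) ^ p = 1 := by
    rw [← map_pow, ← map_pow, Cfsg.Agent.Lib.Helper52.PslP7c.transv_pow, nsmul_eq_mul,
      CharP.cast_eq_zero F p, zero_mul, SpecialLinearGroup.transvection_coeff_zero, map_one,
      map_one]
  have h2 := orderOf_dvd_of_pow_eq_one h1
  rcases (Nat.dvd_prime hp).mp h2 with h | h
  · exact ⟨0, by rw [h, pow_zero]⟩
  · exact ⟨1, by rw [h, pow_one]⟩

/-- the image of a diagonal element of the Levi subgroup lies in the subgroup generated by the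
`p`-elements of `N(RQ)` -/
theorem pr_levi_mem [Fintype F] (p : ℕ) [Fact p.Prime] [CharP F p]
    (t : SpecialLinearGroup (Fin m) F) (ht : ∀ i j : Fin m, i ≠ j → t i j = 0) :
    pr (leviSp m F t) ∈ Subgroup.closure {k : Cfsg.PSp m F |
      k ∈ Subgroup.normalizer (RQ m F : Set (Cfsg.PSp m F)) ∧ ∃ e : ℕ, orderOf k = p ^ e} := by
  have h : Subgroup.closure (TV m F) ≤ (Subgroup.closure {k : Cfsg.PSp m F |
      k ∈ Subgroup.normalizer (RQ m F : Set (Cfsg.PSp m F)) ∧ ∃ e : ℕ, orderOf k = p ^ e}).comap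
      (pr.comp (leviSp m F)) := by
    rw [Subgroup.closure_le]
    rintro _ ⟨i, j, hij, a, rfl⟩
    exact Subgroup.subset_closure ⟨pr_levi_norm_RQ _, order_levi_transv p hij a⟩
  exact h (diag_closure t ht)

/-- a diagonal symplectic matrix is the Levi image of its upper-left block -/
theorem diag_eq_levi (d : Matrix.symplecticGroup (Fin m) F)
    (hd : ∀ i j : Fin m ⊕ Fin m, i ≠ j →
      (d : Matrix (Fin m ⊕ Fin m) (Fin m ⊕ Fin m) F) i j = 0)
    (hdet : (Matrix.diagonal fun i : Fin m =>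
      (d : Matrix (Fin m ⊕ Fin m) (Fin m ⊕ Fin m) F) (Sum.inl i) (Sum.inl i)).det = 1) :
    ((⟨Matrix.diagonal fun i : Fin m =>
        (d : Matrix (Fin m ⊕ Fin m) (Fin m ⊕ Fin m) F) (Sum.inl i) (Sum.inl i), hdet⟩ :
        SpecialLinearGroup (Fin m) F)⁻¹ : SpecialLinearGroup (Fin m) F).1 =
      Matrix.diagonal (fun i : Fin m =>
        (d : Matrix (Fin m ⊕ Fin m) (Fin m ⊕ Fin m) F) (Sum.inr i) (Sum.inr i)) ∧
    d = leviSp m F ⟨Matrix.diagonal fun i : Fin m =>
      (d : Matrix (Fin m ⊕ Fin m) (Fin m ⊕ Fin m) F) (Sum.inl i) (Sum.inl i), hdet⟩ ∧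
    ∀ i : Fin m, (d : Matrix (Fin m ⊕ Fin m) (Fin m ⊕ Fin m) F) (Sum.inl i) (Sum.inl i) *
      (d : Matrix (Fin m ⊕ Fin m) (Fin m ⊕ Fin m) F) (Sum.inr i) (Sum.inr i) = 1 := by
  set a : Fin m → F := fun i =>
    (d : Matrix (Fin m ⊕ Fin m) (Fin m ⊕ Fin m) F) (Sum.inl i) (Sum.inl i) with ha
  set b : Fin m → F := fun i =>
    (d : Matrix (Fin m ⊕ Fin m) (Fin m ⊕ Fin m) F) (Sum.inr i) (Sum.inr i) with hb
  have hdmat : (d : Matrix (Fin m ⊕ Fin m) (Fin m ⊕ Fin m) F) =
      fromBlocks (Matrix.diagonal a) 0 0 (Matrix.diagonal b) := by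
    ext i j
    rcases i with i | i <;> rcases j with j | j
    · rw [Matrix.fromBlocks_apply₁₁]
      by_cases hij : i = j
      · subst hij; rw [Matrix.diagonal_apply_eq]
      · rw [Matrix.diagonal_apply_ne _ hij]; exact hd _ _ (fun h => hij (Sum.inl.inj h))
    · rw [Matrix.fromBlocks_apply₁₂]; exact hd _ _ (by simp)
    · rw [Matrix.fromBlocks_apply₂₁]; exact hd _ _ (by simp)
    · rw [Matrix.fromBlocks_apply₂₂]
      by_cases hij : i = j
      · subst hij; rw [Matrix.diagonal_apply_eq]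
      · rw [Matrix.diagonal_apply_ne _ hij]; exact hd _ _ (fun h => hij (Sum.inr.inj h))
  have hab : Matrix.diagonal a * Matrix.diagonal b = (1 : Matrix (Fin m) (Fin m) F) := by
    have h2 := d.2
    rw [hdmat, SymplecticGroup.fromBlocks_mem_iff] at h2
    have h3 := h2.2.2
    rw [Matrix.transpose_zero, Matrix.zero_mul, sub_zero, Matrix.diagonal_transpose] at h3
    exact h3
  have habi : ∀ i, a i * b i = 1 := by
    intro i
    have h := congrFun (congrFun hab i) i
    rw [Matrix.diagonal_mul_diagonal, Matrix.diagonal_apply_eq, Matrix.one_apply_eq] at h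
    exact h
  have hinv : ((⟨Matrix.diagonal a, hdet⟩ : SpecialLinearGroup (Fin m) F)⁻¹ :
      SpecialLinearGroup (Fin m) F).1 = Matrix.diagonal b := by
    have h1 := sl_inv_mul (⟨Matrix.diagonal a, hdet⟩ : SpecialLinearGroup (Fin m) F)
    calc ((⟨Matrix.diagonal a, hdet⟩ : SpecialLinearGroup (Fin m) F)⁻¹ :
          SpecialLinearGroup (Fin m) F).1
        = ((⟨Matrix.diagonal a, hdet⟩ : SpecialLinearGroup (Fin m) F)⁻¹ :
          SpecialLinearGroup (Fin m) F).1 * (Matrix.diagonal a * Matrix.diagonal b) := by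
          rw [hab, Matrix.mul_one]
      _ = Matrix.diagonal b := by
          rw [← Matrix.mul_assoc]
          have h1' : ((⟨Matrix.diagonal a, hdet⟩ : SpecialLinearGroup (Fin m) F)⁻¹ :
            SpecialLinearGroup (Fin m) F).1 * Matrix.diagonal a = 1 := h1
          rw [h1', Matrix.one_mul]
  refine ⟨hinv, ?_, habi⟩
  apply Subtype.ext
  show (d : Matrix (Fin m ⊕ Fin m) (Fin m ⊕ Fin m) F) = fromBlocks (Matrix.diagonal a) 0 0
    (((⟨Matrix.diagonal a, hdet⟩ : SpecialLinearGroup (Fin m) F)⁻¹ :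
      SpecialLinearGroup (Fin m) F).1)ᵀ
  rw [hinv, Matrix.diagonal_transpose]
  exact hdmat

theorem isUT_diag_conj (a b : Fin m → F) (hab : ∀ i, a i * b i = 1)
    (u : Matrix (Fin m) (Fin m) F) (hu : IsUT u) :
    IsUT (Matrix.diagonal a * u * Matrix.diagonal b) := by
  constructor
  · intro i j hji
    rw [Matrix.mul_diagonal, Matrix.diagonal_mul, hu.1 i j hji, mul_zero, zero_mul]
  · intro i
    rw [Matrix.mul_diagonal, Matrix.diagonal_mul, hu.2 i, mul_one, hab i]

theorem main : Cfsg.Agent.Lib.Helper52.SpStmt.TorusA.{u} := by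
  intro m F _ _ p _ _ hm d hd hprod
  have hdet : (Matrix.diagonal fun i : Fin m =>
      (d : Matrix (Fin m ⊕ Fin m) (Fin m ⊕ Fin m) F) (Sum.inl i) (Sum.inl i)).det = 1 := by
    rw [Matrix.det_diagonal]
    exact hprod
  obtain ⟨hinv, hdD, hab⟩ := diag_eq_levi d hd hdet
  set D : SpecialLinearGroup (Fin m) F := ⟨Matrix.diagonal fun i : Fin m =>
      (d : Matrix (Fin m ⊕ Fin m) (Fin m ⊕ Fin m) F) (Sum.inl i) (Sum.inl i), hdet⟩ with hD
  have hDdiag : ∀ i j : Fin m, i ≠ j → D i j = 0 := by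
    intro i j hij
    show (Matrix.diagonal fun i : Fin m =>
      (d : Matrix (Fin m ⊕ Fin m) (Fin m ⊕ Fin m) F) (Sum.inl i) (Sum.inl i)) i j = 0
    exact Matrix.diagonal_apply_ne _ hij
  constructor
  · -- normalizes `PU`
    have hnorm : d ∈ Subgroup.normalizer
        ((U : Subgroup (Matrix.symplecticGroup (Fin m) F)) :
          Set (Matrix.symplecticGroup (Fin m) F)) := by
      apply Cfsg.Agent.Lib.Helper52.PslP7c.mem_normalizer_of_conj
      intro x hx
      obtain ⟨hx1, hx2, hx3⟩ := blocks hx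
      rw [mem_U]
      have hcoe : ((d * x * d⁻¹ : Matrix.symplecticGroup (Fin m) F) :
          Matrix (Fin m ⊕ Fin m) (Fin m ⊕ Fin m) F) =
          fromBlocks (D.1 * (x : Matrix (Fin m ⊕ Fin m) (Fin m ⊕ Fin m) F).toBlocks₁₁ *
              (D⁻¹ : SpecialLinearGroup (Fin m) F).1)
            (D.1 * (x : Matrix (Fin m ⊕ Fin m) (Fin m ⊕ Fin m) F).toBlocks₁₂ * D.1ᵀ) 0
            ((D⁻¹ : SpecialLinearGroup (Fin m) F).1ᵀ *
              (x : Matrix (Fin m ⊕ Fin m) (Fin m ⊕ Fin m) F).toBlocks₂₂ * D.1ᵀ) := by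
        have e1 : d⁻¹ = leviSp m F D⁻¹ := by rw [map_inv, ← hdD]
        rw [e1]
        conv_lhs => rw [hdD]
        show ((leviSp m F D : Matrix.symplecticGroup (Fin m) F) :
            Matrix (Fin m ⊕ Fin m) (Fin m ⊕ Fin m) F) *
          (x : Matrix (Fin m ⊕ Fin m) (Fin m ⊕ Fin m) F) *
          ((leviSp m F D⁻¹ : Matrix.symplecticGroup (Fin m) F) :
            Matrix (Fin m ⊕ Fin m) (Fin m ⊕ Fin m) F) = _
        rw [leviSp_coe, leviSp_coe, inv_inv]
        conv_lhs => rw [hx1]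
        rw [Matrix.fromBlocks_multiply, Matrix.fromBlocks_multiply]
        simp only [Matrix.zero_mul, Matrix.mul_zero, add_zero, zero_add]
      rw [hcoe, Matrix.toBlocks_fromBlocks₂₁, Matrix.toBlocks_fromBlocks₁₁]
      refine ⟨rfl, ?_⟩
      rw [hinv]
      exact isUT_diag_conj _ _ hab _ hx.2
    exact Subgroup.le_normalizer_map pr (Subgroup.mem_map_of_mem pr hnorm)
  · rw [hdD]
    exact pr_levi_mem p D hDdiag

end Sp

end Cfsg.Agent.Lib.Helper65.SpTA
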