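import Mathlib
import Cfsg.Agent.Lib.Helper14.TC3Stmt
import Cfsg.Agent.Lib.Helper3.TDBasic

/-!
S4460 piece B2C: in `N = L ⋊ P` with all nonlinear degrees of `N` divisible by `p`,
`L' ≤ [L, P]`.
-/

set_option autoImplicit false

namespace Cfsg.Agent.Lib.Helper65.TC3B2C

open Cfsg Cfsg.Agent.Lib.Helper14.TC3Stmt
open scoped commutatorElement

universe u

/-- `⁅H, K⁆` is normal when `H ⊔ K = ⊤`. -/
theorem comm_normal_of_sup_top {X : Type u} [Group X] (H K : Subgroup X) (h : H ⊔ K = ⊤) :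
    (⁅H, K⁆).Normal := by
  have key1 : ∀ x ∈ H, ∀ n ∈ ⁅H, K⁆, x * n * x⁻¹ ∈ ⁅H, K⁆ := by
    intro x hx n hn
    have hle : ⁅H, K⁆ ≤ (⁅H, K⁆).comap (MulAut.conj x).toMonoidHom := by
      rw [Subgroup.commutator_le]
      intro a ha b hb
      rw [Subgroup.mem_comap]
      have e : (MulAut.conj x).toMonoidHom ⁅a, b⁆ = ⁅x * a, b⁆ * ⁅x, b⁆⁻¹ := by
        simp only [MulEquiv.toMonoidHom_eq_coe, MonoidHom.coe_coe, MulAut.conj_apply,
          commutatorElement_def]
        group
      rw [e]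
      exact Subgroup.mul_mem _ (Subgroup.commutator_mem_commutator (H.mul_mem hx ha) hb)
        (Subgroup.inv_mem _ (Subgroup.commutator_mem_commutator hx hb))
    have := hle hn
    simpa using this
  have key2 : ∀ x ∈ K, ∀ n ∈ ⁅H, K⁆, x * n * x⁻¹ ∈ ⁅H, K⁆ := by
    intro x hx n hn
    have hle : ⁅H, K⁆ ≤ (⁅H, K⁆).comap (MulAut.conj x).toMonoidHom := by
      rw [Subgroup.commutator_le]
      intro a ha b hb
      rw [Subgroup.mem_comap]
      have e : (MulAut.conj x).toMonoidHom ⁅a, b⁆ = ⁅a, x⁆⁻¹ * ⁅a, x * b⁆ := by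
        simp only [MulEquiv.toMonoidHom_eq_coe, MonoidHom.coe_coe, MulAut.conj_apply,
          commutatorElement_def]
        group
      rw [e]
      exact Subgroup.mul_mem _ (Subgroup.inv_mem _ (Subgroup.commutator_mem_commutator ha hx))
        (Subgroup.commutator_mem_commutator ha (K.mul_mem hx hb))
    have := hle hn
    simpa using this
  have key : ∀ g : X, (∀ n ∈ ⁅H, K⁆, g * n * g⁻¹ ∈ ⁅H, K⁆) ∧
      (∀ n ∈ ⁅H, K⁆, g⁻¹ * n * g ∈ ⁅H, K⁆) := by
    intro g
    have hg : g ∈ H ⊔ K := by rw [h]; trivial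
    have hcl : H ⊔ K = Subgroup.closure ((H : Set X) ∪ (K : Set X)) := by
      rw [Subgroup.closure_union, Subgroup.closure_eq, Subgroup.closure_eq]
    rw [hcl] at hg
    induction hg using Subgroup.closure_induction with
    | mem x hx =>
      rcases hx with hx | hx
      · refine ⟨key1 x hx, fun n hn => ?_⟩
        have := key1 x⁻¹ (H.inv_mem hx) n hn
        simpa using this
      · refine ⟨key2 x hx, fun n hn => ?_⟩
        have := key2 x⁻¹ (K.inv_mem hx) n hn
        simpa using this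
    | one => exact ⟨fun n hn => by simpa using hn, fun n hn => by simpa using hn⟩
    | mul x y _ _ ihx ihy =>
      refine ⟨fun n hn => ?_, fun n hn => ?_⟩
      · have := ihx.1 _ (ihy.1 n hn)
        have e : x * y * n * (x * y)⁻¹ = x * (y * n * y⁻¹) * x⁻¹ := by group
        rw [e]; exact this
      · have := ihy.2 _ (ihx.2 n hn)
        have e : (x * y)⁻¹ * n * (x * y) = y⁻¹ * (x⁻¹ * n * x) * y := by group
        rw [e]; exact this
    | inv x _ ih =>
      refine ⟨fun n hn => ?_, fun n hn => ?_⟩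
      · have := ih.2 n hn
        simpa using this
      · have := ih.1 n hn
        simpa using this
  exact ⟨fun n hn g => (key g).1 n hn⟩

/-- The core statement inside the group `X = N`. -/
theorem core {X : Type u} [Group X] [Finite X] (L P : Subgroup X) (p : ℕ) (hp : p.Prime)
    (hLn : L.Normal) (hsup : L ⊔ P = ⊤) (hcop : (Nat.card L).Coprime p) (hP : IsPGroup p P)
    (hnl : NonlinDvd X p) : ⁅L, L⁆ ≤ ⁅L, P⁆ := by
  classical
  have hE : (⁅L, P⁆).Normal := comm_normal_of_sup_top L P hsup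
  set π := QuotientGroup.mk' ⁅L, P⁆ with hπ
  have hπs : Function.Surjective π := QuotientGroup.mk'_surjective _
  set Lb := L.map π with hLb
  set Pb := P.map π with hPb
  have hsupb : Lb ⊔ Pb = ⊤ := by
    rw [hLb, hPb, ← Subgroup.map_sup, hsup, Subgroup.map_top_of_surjective _ hπs]
  have hcomm : ⁅Lb, Pb⁆ = ⊥ := by
    rw [hLb, hPb, ← Subgroup.map_commutator, hπ, QuotientGroup.map_mk'_self]
  have hLc : Lb ≤ Subgroup.centralizer (Pb : Set (X ⧸ ⁅L, P⁆)) :=
    Subgroup.commutator_eq_bot_iff_le_centralizer.1 hcomm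
  have hPbn : Pb.Normal := by
    rw [← Subgroup.normalizer_eq_top_iff, eq_top_iff, ← hsupb]
    refine sup_le ?_ Subgroup.le_normalizer
    intro x hx
    have hxc := hLc hx
    rw [Subgroup.mem_normalizer_iff]
    intro y
    constructor
    · intro hy
      have := hxc y hy
      have e : x * y * x⁻¹ = y := by rw [← this]; group
      rw [e]; exact hy
    · intro hy
      have := hxc _ hy
      have e : y = x * y * x⁻¹ := by
        have h2 : x * y * x⁻¹ * x = x * (x * y * x⁻¹) := this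
        have h3 : x * y = x * (x * y * x⁻¹) := by rw [← h2]; group
        exact mul_left_cancel h3
      rw [e]; exact hy
  set M := Pb.comap π with hM
  have hMn : M.Normal := hPbn.comap π
  have hcardLb : Nat.card Lb ∣ Nat.card L := Subgroup.card_map_dvd L π
  have hidx : M.index ∣ Nat.card L := by
    have h1 : M.index = Pb.index := Subgroup.index_comap_of_surjective Pb hπs
    have h2 : Pb.index = Pb.relIndex Lb := by
      haveI := hPbn
      rw [← Subgroup.relIndex_top_right, ← hsupb, Subgroup.relIndex_sup_right]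
    rw [h1, h2]
    exact (Subgroup.relIndex_dvd_card Pb Lb).trans hcardLb
  have hidxc : (M.index).Coprime p := Nat.Coprime.coprime_dvd_left hidx hcop
  have hlin : ∀ ψ : IrrCharacter (X ⧸ M), charDegree (ψ : X ⧸ M → ℂ) = 1 := by
    intro ψ
    by_contra hne
    have h1 : charDegree (ψ : X ⧸ M → ℂ) ∣ Nat.card (X ⧸ M) :=
      Cfsg.Agent.Lib.Helper80.Integrality.charDegree_dvd_card ψ
    have h2 : p ∣ charDegree (Cfsg.Agent.Lib.Helper3.TDBasic.infl M ψ : X → ℂ) :=
      hnl _ (by rw [Cfsg.Agent.Lib.Helper3.TDBasic.charDegree_infl]; exact hne)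
    rw [Cfsg.Agent.Lib.Helper3.TDBasic.charDegree_infl] at h2
    have h3 : p ∣ M.index := by
      rw [Subgroup.index_eq_card]
      exact h2.trans h1
    have h4 : p ∣ Nat.gcd M.index p := Nat.dvd_gcd h3 dvd_rfl
    rw [hidxc] at h4
    exact hp.one_lt.ne' (Nat.dvd_one.1 h4)
  have hab := Cfsg.Agent.Lib.Helper3.TDBasic.comm_of_forall_degree_one hlin
  have hcM : ∀ a b : X, ⁅a, b⁆ ∈ M := by
    intro a b
    rw [← QuotientGroup.eq_one_iff]
    have := hab (a : X ⧸ M) (b : X ⧸ M)
    rw [commutatorElement_def]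
    simp only [QuotientGroup.mk_mul, QuotientGroup.mk_inv]
    rw [this]
    group
  have hdisj : ∀ x : X ⧸ ⁅L, P⁆, x ∈ Lb → x ∈ Pb → x = 1 := by
    intro x hxL hxP
    have hPbp : IsPGroup p Pb := hP.map π
    obtain ⟨j, hj⟩ := hPbp ⟨x, hxP⟩
    have hj' : x ^ p ^ j = 1 := by
      have := congrArg Subtype.val hj
      simpa using this
    have h1 : orderOf x ∣ p ^ j := orderOf_dvd_of_pow_eq_one hj'
    have h2 : orderOf x ∣ Nat.card L := (Subgroup.orderOf_dvd_natCard Lb hxL).trans hcardLb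
    have h3 : (Nat.card L).Coprime (p ^ j) := Nat.Coprime.pow_right j hcop
    have h4 : orderOf x ∣ Nat.gcd (Nat.card L) (p ^ j) := Nat.dvd_gcd h2 h1
    rw [h3] at h4
    exact orderOf_eq_one_iff.1 (Nat.dvd_one.1 h4)
  rw [Subgroup.commutator_le]
  intro a ha b hb
  have h1 : π ⁅a, b⁆ ∈ Pb := hcM a b
  have h2 : π ⁅a, b⁆ ∈ Lb := by
    refine Subgroup.mem_map_of_mem π ?_
    rw [commutatorElement_def]
    exact L.mul_mem (L.mul_mem (L.mul_mem ha hb) (L.inv_mem ha)) (L.inv_mem hb)
  have h3 := hdisj _ h2 h1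
  rw [hπ, QuotientGroup.mk'_apply, QuotientGroup.eq_one_iff] at h3
  exact h3

/-- [B2C] -/
theorem main : Cfsg.Agent.Lib.Helper14.TC3Stmt.B2C.{u} := by
  intro G _ _ N L P p hN hp hnl hsplit
  obtain ⟨hLn, hLN, hPN, hcop, hPp, hsup, hinf, k, hk⟩ := hsplit
  have hL'n : (L.subgroupOf N).Normal := inferInstance
  have hsup' : L.subgroupOf N ⊔ P.subgroupOf N = ⊤ := by
    rw [← Subgroup.subgroupOf_sup hLN hPN, hsup, Subgroup.subgroupOf_self]
  have hcop' : (Nat.card (L.subgroupOf N)).Coprime p := by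
    rw [Nat.card_congr (Subgroup.subgroupOfEquivOfLe hLN).toEquiv]
    exact hcop
  have hP' : IsPGroup p (P.subgroupOf N) := hPp.comap_subtype
  have h := core (L.subgroupOf N) (P.subgroupOf N) p hp hL'n hsup' hcop' hP' hnl
  have h2 := Subgroup.map_mono (f := N.subtype) h
  rw [Subgroup.map_commutator, Subgroup.map_commutator, Subgroup.subgroupOf_map_subtype,
    Subgroup.subgroupOf_map_subtype, inf_eq_left.2 hLN, inf_eq_left.2 hPN] at h2
  exact h2

end Cfsg.Agent.Lib.Helper65.TC3B2C
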