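import Mathlib
import Cfsg.Agent.Lib.Helper14.TC3Stmt
import Cfsg.Agent.Lib.Helper3.TDBasic

/-!
S4460 assembly EABF: in the configuration (b2), `E = ⁅L, P⁆` is abelian.
-/

set_option autoImplicit false

namespace Cfsg.Agent.Lib.Helper65.TC3EABF

open Cfsg Cfsg.Agent.Lib.Helper14.TC3Stmt

universe u

/-- [EABF] -/
theorem main (hHN : HN.{u}) (hB2C : B2C.{u}) (hENorm : ENorm.{u}) (hEAB1 : EAB1.{u})
    (hEAB2a : EAB2a.{u}) (hEAB2c : EAB2c.{u}) (hTHN : THN.{u}) (hGrpR : GrpR.{u})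
    (hEAB3 : EAB3.{u}) : EAb.{u} := by
  intro G _ _ f f' N L P p hctx
  classical
  obtain ⟨hdeg, hNn, hp, hidx, hpf, hpf', hGN, hNoP, hnl, hsplit⟩ := hctx
  have hsplit' := hsplit
  obtain ⟨hLn, hLN, hPN, hcop, hPp, hsup, hinf, k, hk⟩ := hsplit
  have hEn : (⁅L, P⁆).Normal := hENorm G N L P p hNn hp hsplit'
  have hEL : ⁅L, P⁆ ≤ L := Subgroup.commutator_le_left L P
  have hEN' : ⁅L, P⁆ ≤ ⁅N, N⁆ := Subgroup.commutator_mono hLN hPN
  have hL'E : ⁅L, L⁆ ≤ ⁅L, P⁆ := hB2C G N L P p hNn hp hnl hsplit'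
  have hHNapp : ∀ χ : IrrCharacter G, ¬ p ∣ charDegree (χ : G → ℂ) →
      ∀ x ∈ ⁅N, N⁆, (χ : G → ℂ) x = (χ : G → ℂ) 1 := hHN G N p hNn hnl
  have hp1 : ¬ p ∣ 1 := fun h => hp.one_lt.ne' (Nat.dvd_one.1 h)
  -- all irreducible characters of `E` are linear
  have hlin : ∀ η : IrrCharacter ↥(⁅L, P⁆), charDegree (η : ↥(⁅L, P⁆) → ℂ) = 1 := by
    intro η
    by_contra hne
    obtain ⟨r, hr, hrη⟩ := Nat.exists_prime_and_dvd hne
    have hrE : r ∣ Nat.card ↥(⁅L, P⁆) :=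
      hrη.trans (Cfsg.Agent.Lib.Helper80.Integrality.charDegree_dvd_card η)
    have hrL : r ∣ Nat.card L := hrE.trans (Subgroup.card_dvd_of_le hEL)
    have hrp : p ≠ r := by
      intro h
      subst h
      have h4 : p ∣ Nat.gcd (Nat.card L) p := Nat.dvd_gcd hrL dvd_rfl
      rw [hcop] at h4
      exact hp1 h4
    have hrf' : r ∣ f' := by
      refine hEAB1 G f f' ⁅L, P⁆ r hdeg hEn ?_ hr η hrη
      intro χ hχ x hx
      exact hHNapp χ (by rw [hχ]; exact hpf) x (hEN' hx)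
    by_cases hrf : r ∣ f
    · -- `NonlinDvd G r`
      have hnlG : NonlinDvd G r := by
        intro χ hχ
        rcases hdeg χ with h | h | h
        · exact absurd h hχ
        · rw [h]; exact hrf
        · rw [h]; exact hrf'
      have hc := hEAB3 G r hr hnlG hNoP
      have hEG : ⁅L, P⁆ ≤ commutator G := by
        rw [commutator_def]
        exact Subgroup.commutator_mono le_top le_top
      have hrG : r ∣ Nat.card ↥(commutator G) := hrE.trans (Subgroup.card_dvd_of_le hEG)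
      have h4 : r ∣ Nat.gcd (Nat.card ↥(commutator G)) r := Nat.dvd_gcd hrG dvd_rfl
      rw [hc] at h4
      exact hr.one_lt.ne' (Nat.dvd_one.1 h4)
    · -- `r ∤ [G : L]`
      have hLidx : L.index = p ^ k * f := by
        rw [← Subgroup.relIndex_mul_index hLN, hk, hidx]
      have hrLidx : ¬ r ∣ L.index := by
        rw [hLidx]
        intro h
        rcases (Nat.Prime.dvd_mul hr).1 h with h | h
        · exact hrp ((Nat.prime_dvd_prime_iff_eq hr hp).1 (hr.dvd_of_dvd_pow h)).symm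
        · exact hrf h
      have htriv : ∀ χ : IrrCharacter G, ¬ r ∣ charDegree (χ : G → ℂ) →
          ∀ x ∈ ⁅L, P⁆, (χ : G → ℂ) x = (χ : G → ℂ) 1 := by
        intro χ hχ x hx
        refine hHNapp χ ?_ x (hEN' hx)
        rcases hdeg χ with h | h | h
        · rw [h]; exact hp1
        · rw [h]; exact hpf
        · rw [h] at hχ; exact absurd hrf' hχ
      have h2a := hEAB2a G L ⁅L, P⁆ r hLn hEL hr hrLidx htriv
      obtain ⟨hEL', hnlL⟩ := hEAB2c G L ⁅L, P⁆ r hLn hr hEL hL'E h2a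
      obtain ⟨L₀, hL₀n, hL₀L, hL₀c, k₀, hk₀⟩ := hTHN G L r hLn hr hnlL
      have hEL₀ : ⁅L, P⁆ ≤ L₀ :=
        hGrpR G L P L₀ p r hp hr hrp hLn hL₀n hL₀L ⟨k₀, hk₀⟩ hPp hEL'
      have hrL₀ : r ∣ Nat.card L₀ := hrE.trans (Subgroup.card_dvd_of_le hEL₀)
      have h4 : r ∣ Nat.gcd (Nat.card L₀) r := Nat.dvd_gcd hrL₀ dvd_rfl
      rw [hL₀c] at h4
      exact hr.one_lt.ne' (Nat.dvd_one.1 h4)
  have hab := Cfsg.Agent.Lib.Helper3.TDBasic.comm_of_forall_degree_one hlin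
  rw [Subgroup.commutator_eq_bot_iff_le_centralizer]
  intro a ha
  rw [Subgroup.mem_centralizer_iff]
  intro b hb
  have := hab ⟨b, hb⟩ ⟨a, ha⟩
  exact congrArg Subtype.val this

end Cfsg.Agent.Lib.Helper65.TC3EABF
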