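import Mathlib
import Cfsg.Agent.Lib.Helper14.TC3Stmt
import Cfsg.Agent.Lib.Helper3.TDBasic
import Cfsg.Agent.Lib.Helper3.TDTak

/-!
S4460 piece HN: if all nonlinear irreducible characters of the normal subgroup `N` have degree
divisible by `p`, then irreducible characters of `G` of degree prime to `p` are trivial on `N'`.
-/

set_option autoImplicit false

namespace Cfsg.Agent.Lib.Helper65.TC3HN

open Cfsg Cfsg.Agent.Lib.Helper14.TC3Stmt

universe u

/-- [HN] -/
theorem main : Cfsg.Agent.Lib.Helper14.TC3Stmt.HN.{u} := by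
  intro G _ _ N p hN hnl χ hχ x hx
  classical
  haveI := hN
  have := Fintype.ofFinite G
  have := Fintype.ofFinite ↥N
  have := Cfsg.Agent.Lib.Helper3.Irr.finite_irrCharacter (G := ↥N)
  have := Fintype.ofFinite (IrrCharacter ↥N)
  have hres : IsCharacter ↥N (fun n : ↥N => (χ : G → ℂ) n) :=
    Cfsg.Agent.Lib.CT.Ops.isCharacter_restrict N
      (Cfsg.Agent.Lib.CT.Wedderburn.isCharacter_of_irr χ.2)
  obtain ⟨m, hm, hexp, -, -⟩ := Cfsg.Agent.Lib.Helper80.Restrict.exists_mult hres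
  rw [← Subgroup.map_subtype_commutator] at hx
  obtain ⟨x', hx', rfl⟩ := hx
  have h1 := hexp x'
  have h2 := hexp 1
  have key : ∀ ψ : IrrCharacter ↥N, (m ψ : ℂ) * (ψ : ↥N → ℂ) x' = (m ψ : ℂ) * (ψ : ↥N → ℂ) 1 := by
    intro ψ
    by_cases hmψ : m ψ = 0
    · simp [hmψ]
    · have hcon : classInner (fun n : ↥N => (χ : G → ℂ) n) (ψ : ↥N → ℂ) ≠ 0 := by
        rw [hm ψ]
        exact_mod_cast hmψ
      have hd := (Cfsg.Agent.Lib.Helper3.TDBasic.deg_of_constituent N ψ χ hcon).1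
      have hlin : charDegree (ψ : ↥N → ℂ) = 1 := by
        by_contra hne
        exact hχ ((hnl ψ hne).trans hd)
      rw [Cfsg.Agent.Lib.Helper3.TDTak.apply_eq_one_of_mem_commutator ψ hlin hx']
  have h3 : (χ : G → ℂ) ((x' : ↥N) : G) = (χ : G → ℂ) ((1 : ↥N) : G) := by
    rw [h1, h2]
    exact Finset.sum_congr rfl fun ψ _ => key ψ
  simpa using h3

end Cfsg.Agent.Lib.Helper65.TC3HN
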