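import Mathlib
import Cfsg.Agent.Lib.Helper44.TPStmt

/-!
# S5973 / INVGOOD (call by helper44)

`x ∈ Omega^+`, `x ^ 2 = z • 1`: then `z * z = 1` (`Q (e_0 + f_0) = 1`), so `z = 1` (InvGood1) or
`z = -1` (SqNeg1 / SqNeg3).
-/

set_option autoImplicit false

namespace Cfsg.Agent.Lib.Helper65.TPINVGOOD

open Matrix
open Cfsg.Agent.Lib.Helper44.TPStmt

universe u

theorem quadFormPlus_smul {F : Type u} [Field F] (d : ℕ) (z : F) (v : J d → F) :
    Cfsg.quadFormPlus d F (z • v) = z * z * Cfsg.quadFormPlus d F v := by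
  unfold Cfsg.quadFormPlus
  rw [Finset.mul_sum]
  apply Finset.sum_congr rfl
  intro i _
  simp only [Pi.smul_apply, smul_eq_mul]
  ring

theorem quadFormPlus_ef {F : Type u} [Field F] (d : ℕ) (i0 : Fin d) :
    Cfsg.quadFormPlus d F
      (Pi.single (Sum.inl i0) (1 : F) + Pi.single (Sum.inr i0) (1 : F)) = 1 := by
  classical
  unfold Cfsg.quadFormPlus
  rw [Finset.sum_eq_single i0]
  · simp
  · intro b _ hb
    simp [hb]
  · intro h
    exact absurd (Finset.mem_univ _) h

theorem main : InvGood1.{u} → SqNeg1.{u} → SqNeg3.{u} → InvGood.{u} := by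
  intro hG1 hS1 hS3 F _ _ hodd d m hd hm hmd hq x hx hz
  classical
  obtain ⟨z, hz⟩ := hz
  -- `x` is an isometry
  have hiso : x ∈ Cfsg.isometryGroup F (Cfsg.quadFormPlus d F) := by
    obtain ⟨g, -, rfl⟩ := hx
    exact g.2
  have hQ : ∀ u : J d → F, Cfsg.quadFormPlus d F ((x : Matrix (J d) (J d) F) *ᵥ u) =
      Cfsg.quadFormPlus d F u := fun u => hiso u u
  have hxx : (x : Matrix (J d) (J d) F) * (x : Matrix (J d) (J d) F) =
      z • (1 : Matrix (J d) (J d) F) := by
    rw [← hz, pow_two]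
    rfl
  -- `z * z = 1`
  have hzz : z * z = 1 := by
    obtain ⟨v, hv⟩ : ∃ v : J d → F, Cfsg.quadFormPlus d F v = 1 :=
      ⟨_, quadFormPlus_ef d ⟨0, hd⟩⟩
    have h1 : Cfsg.quadFormPlus d F ((x : Matrix (J d) (J d) F) *ᵥ
        ((x : Matrix (J d) (J d) F) *ᵥ v)) = Cfsg.quadFormPlus d F v := by
      rw [hQ, hQ]
    rw [Matrix.mulVec_mulVec, hxx, Matrix.smul_mulVec, Matrix.one_mulVec,
      quadFormPlus_smul, hv, mul_one] at h1
    exact h1
  have hz1 : z = 1 ∨ z = -1 := by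
    have h1 : (z - 1) * (z + 1) = 0 := by linear_combination hzz
    rcases mul_eq_zero.mp h1 with h | h
    · left
      exact sub_eq_zero.mp h
    · right
      exact eq_neg_of_add_eq_zero_left h
  rcases hz1 with h1 | h1
  · -- `x ^ 2 = 1`
    have hx2 : x ^ 2 = 1 := by
      apply Units.ext
      rw [hz, h1, one_smul]
      rfl
    apply hG1 F hodd d m hd hmd.le _ x hx hx2
    rcases hq with h | ⟨-, h, -⟩
    · exact Or.inl h
    · exact Or.inr h
  · rw [h1] at hz
    rcases hq with h | ⟨h, -, h3⟩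
    · exact hS1 F h d m hmd.le x hiso hz
    · exact hS3 F h d m hmd h3 x hiso hz

end Cfsg.Agent.Lib.Helper65.TPINVGOOD
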